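import Mathlib

/-!
Monomial affine permutations of `m` blocks of size `p` and `r ≤ 1` further points.
-/

set_option autoImplicit false

namespace Cfsg.Agent.Lib.Fusion.AltBlocks

open Equiv Equiv.Perm

variable {m p r : ℕ}

/-- The points. -/
abbrev Pt (m p r : ℕ) := (Fin m × ZMod p) ⊕ Fin r

/-- `(i, x) ↦ (π i, u i * x + b i)`. -/
def aff (π : Perm (Fin m)) (u : Fin m → (ZMod p)ˣ) (b : Fin m → ZMod p) : Perm (Pt m p r) where
  toFun := Sum.map (fun z => (π z.1, (u z.1 : ZMod p) * z.2 + b z.1)) id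
  invFun := Sum.map (fun z => (π.symm z.1, ((u (π.symm z.1))⁻¹ : (ZMod p)ˣ) * (z.2 - b (π.symm z.1)))) id
  left_inv := by rintro (⟨i, x⟩ | k) <;> simp
  right_inv := by rintro (⟨i, x⟩ | k) <;> simp [← mul_assoc]

theorem aff_inl (π : Perm (Fin m)) (u : Fin m → (ZMod p)ˣ) (b : Fin m → ZMod p) (i : Fin m) (x : ZMod p) :
    (aff π u b : Perm (Pt m p r)) (.inl (i, x)) = .inl (π i, (u i : ZMod p) * x + b i) := rfl

theorem aff_inr (π : Perm (Fin m)) (u : Fin m → (ZMod p)ˣ) (b : Fin m → ZMod p) (k : Fin r) :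
    (aff π u b : Perm (Pt m p r)) (.inr k) = .inr k := rfl

theorem aff_mul (π π' : Perm (Fin m)) (u u' : Fin m → (ZMod p)ˣ) (b b' : Fin m → ZMod p) :
    (aff π u b : Perm (Pt m p r)) * aff π' u' b' =
      aff (π * π') (fun i => u (π' i) * u' i) (fun i => (u (π' i) : ZMod p) * b' i + b (π' i)) := by
  refine Equiv.ext ?_
  rintro (⟨i, x⟩ | k)
  · simp only [Perm.mul_apply, aff_inl, Units.val_mul, Sum.inl.injEq, Prod.mk.injEq, true_and]
    ring
  · rfl

theorem aff_one : (aff 1 1 0 : Perm (Pt m p r)) = 1 := by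
  refine Equiv.ext ?_
  rintro (⟨i, x⟩ | k) <;> simp [aff_inl, aff_inr]

/-- Translations of the blocks. -/
def tr : Multiplicative (Fin m → ZMod p) →* Perm (Pt m p r) where
  toFun b := aff 1 1 b.toAdd
  map_one' := aff_one
  map_mul' b b' := by
    rw [aff_mul]
    simp only [toAdd_mul, mul_one, Pi.one_apply, Units.val_one, one_mul, Perm.one_apply]
    congr 1
    funext i
    exact add_comm _ _

theorem tr_inl (b : Fin m → ZMod p) (i : Fin m) (x : ZMod p) :
    (tr (.ofAdd b) : Perm (Pt m p r)) (.inl (i, x)) = .inl (i, x + b i) := by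
  show aff 1 1 b (.inl (i, x)) = _
  simp [aff_inl]

theorem tr_inr (b : Fin m → ZMod p) (k : Fin r) : (tr (.ofAdd b) : Perm (Pt m p r)) (.inr k) = .inr k := rfl

/-- The block permutations. -/
def lift : Perm (Fin m) →* Perm (Pt m p r) where
  toFun π := aff π 1 0
  map_one' := aff_one
  map_mul' π π' := by rw [aff_mul]; simp; rfl

/-- The torus. -/
def tor : (Fin m → (ZMod p)ˣ) →* Perm (Pt m p r) where
  toFun u := aff 1 u 0
  map_one' := aff_one
  map_mul' u u' := by rw [aff_mul]; simp; rfl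

theorem aff_eq (π : Perm (Fin m)) (u : Fin m → (ZMod p)ˣ) (b : Fin m → ZMod p) :
    (aff π u b : Perm (Pt m p r)) = lift π * tr (.ofAdd b) * tor u := by
  show _ = aff π 1 0 * aff 1 1 b * aff 1 u 0
  simp [aff_mul]

theorem aff_conj_tr (π : Perm (Fin m)) (u : Fin m → (ZMod p)ˣ) (b v : Fin m → ZMod p) :
    (aff π u b : Perm (Pt m p r)) * tr (.ofAdd v) =
      tr (.ofAdd fun j => (u (π.symm j) : ZMod p) * v (π.symm j)) * aff π u b := by
  show aff π u b * aff 1 1 v = aff 1 1 _ * aff π u b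
  simp [aff_mul, add_comm]

theorem lift_tor (π : Perm (Fin m)) (u : Fin m → (ZMod p)ˣ) :
    (lift π : Perm (Pt m p r)) * tor u * (lift π)⁻¹ = tor fun j => u (π.symm j) := by
  rw [mul_inv_eq_iff_eq_mul]
  show aff π 1 0 * aff 1 u 0 = aff 1 _ 0 * aff π 1 0
  simp [aff_mul]

variable [hp : Fact p.Prime]

theorem tr_pow (b : Multiplicative (Fin m → ZMod p)) : (tr b : Perm (Pt m p r)) ^ p = 1 := by
  rw [← map_pow]
  convert map_one (tr (m := m) (p := p) (r := r))
  apply Multiplicative.toAdd.injective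
  funext i
  simp

variable (hp2 : p ≠ 2)
include hp2

theorem sign_of_pow {g : Perm (Pt m p r)} {k : ℕ} (h : g ^ p ^ k = 1) : Perm.sign g = 1 := by
  have h1 := congrArg Perm.sign h
  rw [map_pow, map_one] at h1
  rcases Int.units_eq_one_or (Perm.sign g) with h2 | h2
  · exact h2
  · rw [h2, ((hp.out.odd_of_ne_two hp2).pow).neg_one_pow] at h1
    exact absurd h1 (by decide)

theorem sign_lift (π : Perm (Fin m)) : Perm.sign (lift π : Perm (Pt m p r)) = Perm.sign π := by
  have h : (lift π : Perm (Pt m p r)) = Equiv.sumCongr (Equiv.prodCongrLeft fun _ => π) 1 := by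
    refine Equiv.ext ?_
    rintro (⟨i, x⟩ | k)
    · show aff π 1 0 (.inl (i, x)) = _
      simp [aff_inl, Equiv.prodCongrLeft]
    · rfl
  rw [h, Equiv.Perm.sign_sumCongr, map_one, mul_one, Equiv.Perm.sign_prodCongrLeft, Finset.prod_const,
    Finset.card_univ, ZMod.card]
  rcases Int.units_eq_one_or (Perm.sign π) with h2 | h2
  · rw [h2, one_pow]
  · rw [h2, (hp.out.odd_of_ne_two hp2).neg_one_pow]

/-- The parity of the torus element with value `u` on one block. -/
def ψ (i : Fin m) : (ZMod p)ˣ →* ℤˣ :=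
  (Perm.sign.comp (tor (r := r))).comp (MonoidHom.mulSingle (fun _ : Fin m => (ZMod p)ˣ) i)

omit hp2 in
theorem ψ_indep (i j : Fin m) : ψ (p := p) (r := r) i = ψ (r := r) j := by
  refine MonoidHom.ext fun v => Units.ext ?_
  have h := lift_tor (r := r) (Equiv.swap i j) (Pi.mulSingle i v)
  have e : (fun k => (Pi.mulSingle i v : Fin m → (ZMod p)ˣ) ((Equiv.swap i j).symm k)) = Pi.mulSingle j v := by
    funext k
    rw [Equiv.symm_swap]
    rcases eq_or_ne k j with rfl | hk
    · rw [Equiv.swap_apply_right, Pi.mulSingle_eq_same, Pi.mulSingle_eq_same]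
    · rw [Pi.mulSingle_eq_of_ne hk, Pi.mulSingle_eq_of_ne]
      intro h'
      exact hk (((Equiv.swap i j).injective (h'.trans (Equiv.swap_apply_right i j).symm)))
  rw [e] at h
  show ((Perm.sign (tor (Pi.mulSingle i v)) : ℤˣ) : ℤ) = (Perm.sign (tor (Pi.mulSingle j v)) : ℤˣ)
  rw [← h]
  simp only [map_mul, map_inv, Int.units_inv_eq_self]
  rw [mul_comm (Perm.sign (lift (Equiv.swap i j))), mul_assoc, Int.units_mul_self, mul_one]

omit hp2 in
theorem sign_tor (i : Fin m) (u : Fin m → (ZMod p)ˣ) :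
    Perm.sign (tor u : Perm (Pt m p r)) = ψ (r := r) i (∏ k, u k) := by
  show (Perm.sign.comp (tor (r := r))) u = _
  conv_lhs => rw [← Finset.univ_prod_mulSingle u, map_prod]
  rw [map_prod]
  refine Finset.prod_congr rfl fun k _ => ?_
  rw [← ψ_indep k i]
  rfl

theorem sign_aff (i : Fin m) (π : Perm (Fin m)) (u : Fin m → (ZMod p)ˣ) (b : Fin m → ZMod p) :
    Perm.sign (aff π u b : Perm (Pt m p r)) = Perm.sign π * ψ (r := r) i (∏ k, u k) := by
  rw [aff_eq, map_mul, map_mul, sign_lift hp2, sign_tor i,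
    sign_of_pow hp2 (k := 1) (by rw [pow_one]; exact tr_pow _), mul_one]

end Cfsg.Agent.Lib.Fusion.AltBlocks
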