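import Cfsg.Agent.Lib.Fusion.AltCycle
import Cfsg.Agent.Lib.Fusion.Basic

/-!
Strongly closed subgroups in the Sylow subgroups of alternating groups.
-/

set_option autoImplicit false

namespace Cfsg.Agent.Lib.Fusion.AltClosed

open Equiv Equiv.Perm Cfsg Cfsg.FusionSystem

variable {α : Type*} [Fintype α] [DecidableEq α] {p : ℕ} [hp : Fact p.Prime]

/-- A strongly closed subgroup contains its conjugates lying in the Sylow subgroup. -/
theorem closed_conj' {G : Type*} [Group G] {S T : Subgroup G}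
    (hT : (Cfsg.groupFusionSystem S).StronglyClosed T) {x g : G} (hx : x ∈ T) (hg : g * x * g⁻¹ ∈ S) :
    g * x * g⁻¹ ∈ T := by
  have hmem : conjHom (Subgroup.zpowers x) g ∈ (Cfsg.groupFusionSystem S).Hom (Subgroup.zpowers x) := by
    refine ⟨Subgroup.zpowers_le.2 (hT.1 hx), fun w => ?_, g, fun w => rfl⟩
    obtain ⟨w, k, rfl⟩ := w
    show g * x ^ k * g⁻¹ ∈ S
    rw [← conj_zpow]
    exact zpow_mem hg k
  exact hT.2 (Subgroup.zpowers x) (Subgroup.zpowers_le.2 hx) _ hmem ⟨x, Subgroup.mem_zpowers x⟩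

/-- The permutations conjugate in the alternating group into `T`. -/
def C (T : Subgroup (alternatingGroup α)) (σ : Perm α) : Prop :=
  ∃ (h : σ ∈ alternatingGroup α) (g : alternatingGroup α), g * ⟨σ, h⟩ * g⁻¹ ∈ T

variable {T : Subgroup (alternatingGroup α)}

theorem C.even {σ : Perm α} (h : C T σ) : σ ∈ alternatingGroup α := h.1

theorem C.inv {σ : Perm α} (h : C T σ) : C T σ⁻¹ := by
  obtain ⟨h, g, hg⟩ := h
  refine ⟨inv_mem h, g, ?_⟩
  have := inv_mem hg
  rwa [mul_inv_rev, mul_inv_rev, inv_inv, ← mul_assoc] at this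

/-- Conjugation inside the alternating group. -/
theorem C.conj {σ τ : Perm α} (h : C T σ) (hτ : τ ∈ alternatingGroup α) (hc : IsConj σ τ)
    (hodd : ¬ Subgroup.centralizer {σ} ≤ alternatingGroup α) : C T τ := by
  obtain ⟨hσ, g, hg⟩ := h
  obtain ⟨k, hk⟩ := isConj_iff.1 hc
  obtain ⟨z, hz, hzA⟩ := SetLike.not_le_iff_exists.1 hodd
  have hz' : z * σ * z⁻¹ = σ := by
    rw [Subgroup.mem_centralizer_singleton_iff.1 hz, mul_inv_cancel_right]
  obtain ⟨k', hk', hkA⟩ : ∃ k', k' * σ * k'⁻¹ = τ ∧ k' ∈ alternatingGroup α := by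
    by_cases hkA : k ∈ alternatingGroup α
    · exact ⟨k, hk, hkA⟩
    refine ⟨k * z, ?_, ?_⟩
    · rw [show k * z * σ * (k * z)⁻¹ = k * (z * σ * z⁻¹) * k⁻¹ by group, hz', hk]
    · rw [mem_alternatingGroup] at hkA hzA ⊢
      rw [map_mul, (Int.units_eq_one_or _).resolve_left hkA, (Int.units_eq_one_or _).resolve_left hzA]
      rfl
  refine ⟨hτ, g * ⟨k', hkA⟩⁻¹, ?_⟩
  convert hg using 1
  refine Subtype.ext ?_
  push_cast
  rw [← hk']
  group

section

variable {S : Sylow p (alternatingGroup α)}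
  (hT : (Cfsg.groupFusionSystem (S : Subgroup (alternatingGroup α))).StronglyClosed T)
include hT

theorem mem_of_C {x : alternatingGroup α} (hx : x ∈ (S : Subgroup (alternatingGroup α))) (h : C T x) :
    x ∈ T := by
  obtain ⟨_, g, hg⟩ := h
  have h1 := closed_conj' hT hg (g := g⁻¹) (by simpa [mul_assoc] using hx)
  simpa [mul_assoc] using h1

/-- Products inside a common `p`-subgroup. -/
theorem C.mul {P : Subgroup (Perm α)} (hP : IsPGroup p P) {σ τ : Perm α} (hσP : σ ∈ P) (hτP : τ ∈ P)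
    (hσ : C T σ) (hτ : C T τ) : C T (σ * τ) := by
  obtain ⟨hσA, a, ha⟩ := hσ
  obtain ⟨hτA, b, hb⟩ := hτ
  obtain ⟨Q, hQ⟩ := (hP.comap_subtype (K := alternatingGroup α)).exists_le_sylow
  obtain ⟨g, hg⟩ := MulAction.exists_smul_eq (alternatingGroup α) Q S
  have hin : ∀ x : alternatingGroup α, (x : Perm α) ∈ P → g * x * g⁻¹ ∈ (S : Subgroup (alternatingGroup α)) := by
    intro x hx
    rw [← hg, Sylow.coe_subgroup_smul]
    exact ⟨x, hQ hx, rfl⟩
  have hto : ∀ (x c : alternatingGroup α), c * x * c⁻¹ ∈ T → (x : Perm α) ∈ P → g * x * g⁻¹ ∈ T := by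
    intro x c hc hx
    have e : g * c⁻¹ * (c * x * c⁻¹) * (g * c⁻¹)⁻¹ = g * x * g⁻¹ := by group
    rw [← e]
    exact closed_conj' hT hc (by rw [e]; exact hin x hx)
  refine ⟨mul_mem hσA hτA, g, ?_⟩
  have := mul_mem (hto ⟨σ, hσA⟩ a ha hσP) (hto ⟨τ, hτA⟩ b hb hτP)
  convert this using 1
  refine Subtype.ext ?_
  push_cast
  group

end

theorem isPGroup_pair {σ τ : Perm α} (hσ : ∃ k, σ ^ p ^ k = 1) (hτ : ∃ k, τ ^ p ^ k = 1)
    (hc : Commute σ τ) : ∃ P : Subgroup (Perm α), IsPGroup p P ∧ σ ∈ P ∧ τ ∈ P := by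
  have one : ∀ u : Perm α, (∃ k, u ^ p ^ k = 1) → IsPGroup p (Subgroup.zpowers u) := by
    rintro u ⟨k, hk⟩
    obtain ⟨r, -, hr⟩ := (Nat.dvd_prime_pow hp.out).1 (orderOf_dvd_of_pow_eq_one hk)
    exact IsPGroup.of_card (n := r) ((Nat.card_zpowers u).trans hr)
  refine ⟨Subgroup.zpowers σ ⊔ Subgroup.zpowers τ, IsPGroup.to_sup_of_normal_right' (one σ hσ) (one τ hτ) ?_,
    Subgroup.mem_sup_left (Subgroup.mem_zpowers _), Subgroup.mem_sup_right (Subgroup.mem_zpowers _)⟩
  refine Subgroup.zpowers_le.2 (Subgroup.mem_normalizer_fintype ?_)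
  rintro _ ⟨k, rfl⟩
  show σ * τ ^ k * σ⁻¹ ∈ Subgroup.zpowers τ
  rw [(hc.zpow_right k).eq, mul_inv_cancel_right]
  exact zpow_mem (Subgroup.mem_zpowers τ) k

theorem cycle_pow {c : Perm α} (hc : c.IsCycle) {k : ℕ} (hk : c.support.card = p ^ k) : c ^ p ^ k = 1 := by
  rw [← hk, ← hc.orderOf, pow_orderOf_eq_one]

theorem type_of_pow {σ : Perm α} (hσ : σ ^ p = 1) :
    σ.cycleType = Multiset.replicate σ.cycleType.card p ∧ σ.cycleType.card * p = σ.support.card := by
  have h := cycleType_of_pow_prime_eq_one hσ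
  exact ⟨h, by rw [← sum_cycleType, h]; simp⟩

/-- A `p`-element is a single cycle, or splits off one cycle of its own. -/
theorem factor_spec {σ c : Perm α} (hc : c ∈ σ.cycleFactorsFinset) (hσ : ∃ k, σ ^ p ^ k = 1) :
    c.IsCycle ∧ (∃ k, c.support.card = p ^ (k + 1)) ∧ Commute (σ * c⁻¹) c ∧
      (σ * c⁻¹).support.card + c.support.card = σ.support.card ∧ (∃ k, (σ * c⁻¹) ^ p ^ k = 1) := by
  have hdis := disjoint_mul_inv_of_mem_cycleFactorsFinset hc
  have hcyc := (mem_cycleFactorsFinset_iff.1 hc).1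
  obtain ⟨k, hk⟩ := hσ
  have hcomm := hdis.commute
  have hsplit : (σ * c⁻¹) ^ p ^ k * c ^ p ^ k = 1 := by
    rw [← hcomm.mul_pow, inv_mul_cancel_right, hk]
  have h1 := (hdis.pow_disjoint_pow (p ^ k) (p ^ k)).mul_eq_one_iff.1 hsplit
  obtain ⟨r, -, hr⟩ := (Nat.dvd_prime_pow hp.out).1 (orderOf_dvd_of_pow_eq_one h1.2)
  rw [hcyc.orderOf] at hr
  refine ⟨hcyc, ?_, hcomm, ?_, k, h1.1⟩
  · rcases r with _ | r
    · have := hcyc.two_le_card_support
      rw [hr, pow_zero] at this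
      omega
    · exact ⟨r, hr⟩
  · rw [← Finset.card_union_of_disjoint hdis.disjoint_support, ← hdis.support_mul, inv_mul_cancel_right]

variable {S : Sylow p (alternatingGroup α)}
  (hT : (Cfsg.groupFusionSystem (S : Subgroup (alternatingGroup α))).StronglyClosed T)
  (hn : 6 ≤ Fintype.card α) (hsq : p ^ 2 ≤ Fintype.card α)


theorem C_one : C T (1 : Perm α) := ⟨one_mem _, 1, by
  convert one_mem T
  exact Subtype.ext (by simp)⟩

include hn hsq

/-- Elements of order `p` with equal supports' sizes are conjugate in the alternating group. -/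
theorem C.same_type {σ τ : Perm α} (h : C T σ) (hσ : σ ^ p = 1) (hτA : τ ∈ alternatingGroup α)
    (hτ : τ ^ p = 1) (hs : τ.support.card = σ.support.card) : C T τ := by
  obtain ⟨h1, h2⟩ := type_of_pow hσ
  obtain ⟨h3, h4⟩ := type_of_pow hτ
  have hcard : τ.cycleType.card = σ.cycleType.card :=
    Nat.eq_of_mul_eq_mul_right hp.out.pos (by rw [h4, hs, ← h2])
  refine h.conj hτA (isConj_iff_cycleType_eq.2 (by rw [h1, h3, hcard])) ?_
  rw [centralizer_le_alternating_iff]
  rintro ⟨hodd, hfix, hcount⟩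
  set k := σ.cycleType.card with hk
  rcases Nat.lt_or_ge k 2 with hk2 | hk2
  · rw [sum_cycleType, ← h2] at hfix
    have h5 : k * p ≤ 1 * p := Nat.mul_le_mul_right p (by omega)
    have h6 : 2 * p ≤ p ^ 2 := by rw [sq]; exact Nat.mul_le_mul_right p hp.out.two_le
    have := hp.out.two_le
    omega
  · have := hcount p
    rw [h1, Multiset.count_replicate_self] at this
    omega

include hT

theorem exists_order_p (hT1 : T ≠ ⊥) : ∃ σ : Perm α, C T σ ∧ σ ^ p = 1 ∧ σ ≠ 1 := by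
  have : Nontrivial T := Subgroup.nontrivial_iff_ne_bot T |>.2 hT1
  obtain ⟨m, hm⟩ := IsPGroup.iff_card.1 (S.2.to_le hT.1)
  obtain ⟨x, hx⟩ := exists_prime_orderOf_dvd_card' p (G := T) (by
    rw [hm]
    refine dvd_pow_self p fun h0 => ?_
    rw [h0, pow_zero] at hm
    exact absurd hm (Finite.one_lt_card).ne')
  refine ⟨((x : alternatingGroup α) : Perm α), ⟨(x : alternatingGroup α).2, 1, by simp⟩, ?_, fun h => ?_⟩
  · rw [← Subgroup.coe_pow, ← Subgroup.coe_pow, ← hx, pow_orderOf_eq_one]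
    rfl
  · have : x = 1 := Subtype.ext (Subtype.ext h)
    rw [this, orderOf_one] at hx
    exact hp.out.ne_one hx.symm

/-- All cycles of odd prime length are conjugate into `T`. -/
theorem C_pcycle (hp2 : p ≠ 2) (hT1 : T ≠ ⊥) {c : Perm α} (hc : c.IsCycle) (hcp : c.support.card = p) :
    C T c := by
  obtain ⟨σ, hσ, hσp, hσ1⟩ := exists_order_p hT hn hsq hT1
  obtain ⟨c₁, hc₁⟩ := Finset.nonempty_iff_ne_empty.2 fun h => hσ1 (cycleFactorsFinset_eq_empty_iff.1 h)
  obtain ⟨hcyc, ⟨k, hk⟩, hcomm, -, -⟩ := factor_spec (p := p) hc₁ ⟨1, by rwa [pow_one]⟩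
  have hc1p : c₁ ^ p = 1 := by
    obtain ⟨h1, -⟩ := type_of_pow hσp
    have := (pow_prime_eq_one_iff.1 hσp) c₁.support.card
      (by rw [cycleType_def, Multiset.mem_map]; exact ⟨c₁, hc₁, rfl⟩)
    rw [← this, ← hcyc.orderOf, pow_orderOf_eq_one]
  have hcard : c₁.support.card = p := by
    rw [← hcyc.orderOf]
    exact orderOf_eq_prime hc1p fun h => hcyc.ne_one h
  have hc₁A : c₁ ∈ alternatingGroup α := by
    rw [mem_alternatingGroup, hcyc.sign, hcard, (hp.out.odd_of_ne_two hp2).neg_one_pow, neg_neg]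
  have hσc : Commute σ c₁ := by
    have := hcomm.mul_left (Commute.refl c₁)
    rwa [inv_mul_cancel_right] at this
  -- `σ * c₁` has the same support
  have hdis := disjoint_mul_inv_of_mem_cycleFactorsFinset hc₁
  have hpp : (c₁ * c₁).support = c₁.support := by
    rw [← sq]
    exact support_pow_coprime ((Nat.coprime_two_left.2 (hcyc.orderOf ▸ hcard ▸ hp.out.odd_of_ne_two hp2))) 
  have hsupp : (σ * c₁).support.card = σ.support.card := by
    have e1 : σ * c₁ = σ * c₁⁻¹ * (c₁ * c₁) := by group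
    have hd2 : Disjoint (σ * c₁⁻¹) (c₁ * c₁) := by
      rw [disjoint_iff_disjoint_support, hpp]
      exact hdis.disjoint_support
    conv_rhs => rw [show σ = σ * c₁⁻¹ * c₁ by group, hdis.support_mul]
    rw [e1, hd2.support_mul, hpp]
  have hτ : C T (σ * c₁) :=
    hσ.same_type hn hsq hσp (mul_mem hσ.even hc₁A) (by rw [hσc.mul_pow, hσp, hc1p, one_mul]) hsupp
  obtain ⟨P, hP, hPσ, hPτ⟩ := isPGroup_pair (p := p) (σ := σ) (τ := c₁) ⟨1, by rwa [pow_one]⟩
    ⟨1, by rwa [pow_one]⟩ hσc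
  have h1 := hσ.inv.mul hT hP (inv_mem hPσ) (mul_mem hPσ hPτ) hτ
  rw [inv_mul_cancel_left] at h1
  refine h1.same_type hn hsq hc1p ?_ ?_ (by rw [hcp, hcard])
  · rw [mem_alternatingGroup, hc.sign, hcp, (hp.out.odd_of_ne_two hp2).neg_one_pow, neg_neg]
  · have := cycle_pow hc (p := p) (k := 1) (by rw [pow_one]; exact hcp)
    rwa [pow_one] at this

theorem C_all_odd (hp2 : p ≠ 2) (hT1 : T ≠ ⊥) {σ : Perm α} (hσ : ∃ k, σ ^ p ^ k = 1) : C T σ := by
  induction hm : σ.support.card using Nat.strong_induction_on generalizing σ with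
  | _ m ih =>
  by_cases hσ1 : σ = 1
  · subst hσ1; exact C_one
  obtain ⟨c, hc⟩ := Finset.nonempty_iff_ne_empty.2 fun h => hσ1 (cycleFactorsFinset_eq_empty_iff.1 h)
  obtain ⟨hcyc, ⟨k, hk⟩, hcomm, hadd, hrest⟩ := factor_spec (p := p) hc hσ
  by_cases hone : (σ * c⁻¹).support.card = 0
  · have hσc : c = σ := (mul_inv_eq_one.1 (support_eq_empty_iff.1 (Finset.card_eq_zero.1 hone))).symm
    subst hσc
    rcases k with _ | k
    · exact C_pcycle hT hn hsq hp2 hT1 hcyc (by rw [hk, pow_one])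
    obtain ⟨d, hd, hsub, hlt, ⟨l, hl⟩, hpow, P, hP, hPc, hPd⟩ := AltCycle.split_cycle hcyc hk
    have hdp : d ^ p ^ (l + 1) = 1 := cycle_pow hd hl
    have hd' : C T d := ih _ (hm ▸ hlt) ⟨_, hdp⟩ rfl
    have hfirst : C T (c * d⁻¹) := by
      by_cases hcase : (c * d⁻¹).support.card < m
      · exact ih _ hcase ⟨1, by rwa [pow_one]⟩ rfl
      · -- an element of order `p`: peel off one cycle
        have hne : c * d⁻¹ ≠ 1 := fun h => by
          rw [mul_inv_eq_one] at h
          rw [h] at hlt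
          exact lt_irrefl _ hlt
        obtain ⟨e, he⟩ := Finset.nonempty_iff_ne_empty.2 fun h => hne (cycleFactorsFinset_eq_empty_iff.1 h)
        obtain ⟨hecyc, ⟨j, hj⟩, hecomm, headd, herest⟩ := factor_spec (p := p) he ⟨1, by rwa [pow_one]⟩
        have hle : (c * d⁻¹).support.card ≤ m := by
          rw [← hm]
          refine Finset.card_le_card ((support_mul_le _ _).trans (Finset.union_subset le_rfl ?_))
          rw [support_inv]
          exact hsub
        have hep : e.support.card = p := (pow_prime_eq_one_iff.1 hpow) _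
          (by rw [cycleType_def, Multiset.mem_map]; exact ⟨e, he, rfl⟩)
        have h2 := hp.out.two_le
        have hrec : C T (c * d⁻¹ * e⁻¹) := ih _ (by omega) herest rfl
        obtain ⟨P', hP', hP1, hP2⟩ := isPGroup_pair herest ⟨1, by
          rw [pow_one, ← hep, ← hecyc.orderOf, pow_orderOf_eq_one]⟩ hecomm
        have := hrec.mul hT hP' hP1 hP2 (C_pcycle hT hn hsq hp2 hT1 hecyc hep)
        rwa [inv_mul_cancel_right] at this
    have := hfirst.mul hT hP (mul_mem hPc (inv_mem hPd)) hPd hd'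
    rwa [inv_mul_cancel_right] at this
  · have hc1 := hcyc.two_le_card_support
    have h1 : C T (σ * c⁻¹) := ih _ (by omega) hrest rfl
    have h2 : C T c := ih _ (by omega) ⟨k + 1, cycle_pow hcyc hk⟩ rfl
    obtain ⟨P, hP, hP1, hP2⟩ := isPGroup_pair hrest ⟨k + 1, cycle_pow hcyc hk⟩ hcomm
    have := h1.mul hT hP hP1 hP2 h2
    rwa [inv_mul_cancel_right] at this

end Cfsg.Agent.Lib.Fusion.AltClosed
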