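import Cfsg.Agent.Lib.Fusion.AltClosed

/-!
Strongly closed subgroups in the Sylow `2`-subgroups of alternating groups.
-/

set_option autoImplicit false

namespace Cfsg.Agent.Lib.Fusion.AltClosed

open Equiv Equiv.Perm Cfsg Cfsg.FusionSystem

variable {α : Type*} [Fintype α] [DecidableEq α] [hp : Fact (Nat.Prime 2)]
  {T : Subgroup (alternatingGroup α)} {S : Sylow 2 (alternatingGroup α)}

theorem sign_sq {σ : Perm α} (h : σ ^ 2 = 1) : σ⁻¹ = σ :=
  inv_eq_of_mul_eq_one_right (by rw [← sq, h])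

/-- A product of two disjoint transpositions. -/
theorem dswap {a b c d : α} (hab : a ≠ b) (hac : a ≠ c) (had : a ≠ d) (hbc : b ≠ c) (hbd : b ≠ d)
    (hcd : c ≠ d) : (swap a b * swap c d) ^ 2 = 1 ∧ (swap a b * swap c d).support.card = 4 ∧
      swap a b * swap c d ∈ alternatingGroup α := by
  have hdis : Disjoint (swap a b) (swap c d) := by
    rw [disjoint_iff_disjoint_support, support_swap hab, support_swap hcd]
    simp [hac.symm, had.symm, hbc.symm, hbd.symm]
  refine ⟨?_, ?_, ?_⟩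
  · rw [hdis.commute.mul_pow, sq, sq, swap_mul_self, swap_mul_self, one_mul]
  · rw [hdis.support_mul, Finset.card_union_of_disjoint hdis.disjoint_support, support_swap hab,
      support_swap hcd, Finset.card_pair hab, Finset.card_pair hcd]
  · rw [mem_alternatingGroup, map_mul, sign_swap hab, sign_swap hcd]; rfl

/-- An even involution moves four points `a b c d` in two pairs. -/
theorem two_pairs {σ : Perm α} (hσ : σ ^ 2 = 1) (hσA : σ ∈ alternatingGroup α) (h1 : σ ≠ 1) :
    ∃ a b c d : α, a ≠ b ∧ a ≠ c ∧ a ≠ d ∧ b ≠ c ∧ b ≠ d ∧ c ≠ d ∧ σ a = b ∧ σ b = a ∧ σ c = d ∧ σ d = c := by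
  have hinv : ∀ x, σ (σ x) = x := fun x => by rw [← Perm.mul_apply, ← sq, hσ, Perm.one_apply]
  obtain ⟨a, ha⟩ : ∃ a, σ a ≠ a := by
    by_contra h
    push Not at h
    exact h1 (Equiv.ext h)
  obtain ⟨c, hc, hca, hcb⟩ : ∃ c, σ c ≠ c ∧ c ≠ a ∧ c ≠ σ a := by
    by_contra h
    push Not at h
    have hsup : σ = swap a (σ a) := by
      ext x
      rcases eq_or_ne x a with rfl | hxa
      · rw [swap_apply_left]
      rcases eq_or_ne x (σ a) with rfl | hxb
      · rw [swap_apply_right, hinv]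
      · rw [swap_apply_of_ne_of_ne hxa hxb]
        by_contra hx
        exact hxb (h x hx hxa)
    rw [mem_alternatingGroup, hsup, sign_swap (Ne.symm ha)] at hσA
    exact absurd hσA (by decide)
  refine ⟨a, σ a, c, σ c, Ne.symm ha, hca.symm, ?_, hcb.symm, fun h => hca (σ.injective h).symm, Ne.symm hc, rfl,
    hinv a, rfl, hinv c⟩
  intro h
  exact hcb (σ.injective (by rw [hinv, ← h]))

variable (hT : (Cfsg.groupFusionSystem (S : Subgroup (alternatingGroup α))).StronglyClosed T)
  (hn : 6 ≤ Fintype.card α) (hT1 : T ≠ ⊥)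
include hT hn hT1

theorem C_double {a b c d : α} (hab : a ≠ b) (hac : a ≠ c) (had : a ≠ d) (hbc : b ≠ c) (hbd : b ≠ d)
    (hcd : c ≠ d) : C T (swap a b * swap c d) := by
  have hsq : 2 ^ 2 ≤ Fintype.card α := by omega
  obtain ⟨σ, hσ, hσ2, hσ1⟩ := exists_order_p (p := 2) hT hn hsq hT1
  obtain ⟨x, y, u, v, hxy, hxu, hxv, hyu, hyv, huv, e1, e2, e3, e4⟩ := two_pairs hσ2 hσ.even hσ1
  obtain ⟨hg2, hg4, hgA⟩ := dswap hxv hxy hxu hyv.symm huv.symm hyu
  set g := swap x v * swap y u with hg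
  have gx : g x = v := by
    rw [hg, Perm.mul_apply, swap_apply_of_ne_of_ne hxy hxu, swap_apply_left]
  have gv : g v = x := by
    rw [hg, Perm.mul_apply, swap_apply_of_ne_of_ne hyv.symm huv.symm, swap_apply_right]
  have gy : g y = u := by
    rw [hg, Perm.mul_apply, swap_apply_left, swap_apply_of_ne_of_ne hxu.symm huv]
  have gu : g u = y := by
    rw [hg, Perm.mul_apply, swap_apply_right, swap_apply_of_ne_of_ne hxy.symm hyv]
  have gz : ∀ z, z ≠ x → z ≠ y → z ≠ u → z ≠ v → g z = z := fun z h1 h2 h3 h4 => by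
    rw [hg, Perm.mul_apply, swap_apply_of_ne_of_ne h2 h3, swap_apply_of_ne_of_ne h1 h4]
  have out : ∀ z, z ≠ x → z ≠ y → z ≠ u → z ≠ v → σ z ≠ x ∧ σ z ≠ y ∧ σ z ≠ u ∧ σ z ≠ v :=
    fun z h1 h2 h3 h4 => ⟨fun h => h2 (σ.injective (h.trans e2.symm)), fun h => h1 (σ.injective (h.trans e1.symm)),
      fun h => h4 (σ.injective (h.trans e4.symm)), fun h => h3 (σ.injective (h.trans e3.symm))⟩
  have hcomm : Commute σ g := by
    refine Equiv.ext fun z => ?_
    simp only [Perm.mul_apply]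
    by_cases hzx : z = x
    · subst hzx; rw [gx, e1, gy, e4]
    by_cases hzy : z = y
    · subst hzy; rw [gy, e2, gx, e3]
    by_cases hzu : z = u
    · subst hzu; rw [gu, e3, gv, e2]
    by_cases hzv : z = v
    · subst hzv; rw [gv, e4, gu, e1]
    obtain ⟨h1, h2, h3, h4⟩ := out z hzx hzy hzu hzv
    rw [gz z hzx hzy hzu hzv, gz _ h1 h2 h3 h4]
  have hprod : (σ * g) ^ 2 = 1 := by rw [hcomm.mul_pow, hσ2, hg2, one_mul]
  have hsupp : (σ * g).support = σ.support := by
    ext z
    simp only [mem_support, Perm.mul_apply]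
    by_cases hzx : z = x
    · subst hzx; rw [gx, e1, e4]; exact iff_of_true hxu.symm hxy.symm
    by_cases hzy : z = y
    · subst hzy; rw [gy, e2, e3]; exact iff_of_true hyv.symm hxy
    by_cases hzu : z = u
    · subst hzu; rw [gu, e3, e2]; exact iff_of_true hxu huv.symm
    by_cases hzv : z = v
    · subst hzv; rw [gv, e4, e1]; exact iff_of_true hyv huv
    rw [gz z hzx hzy hzu hzv]
  have hτ : C T (σ * g) := hσ.same_type hn hsq hσ2 (mul_mem hσ.even hgA) hprod (by rw [hsupp])
  obtain ⟨P, hP, hPσ, hPg⟩ := isPGroup_pair (p := 2) (σ := σ) (τ := g) ⟨1, by rwa [pow_one]⟩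
    ⟨1, by rwa [pow_one]⟩ hcomm
  have h1 := hσ.inv.mul hT hP (inv_mem hPσ) (mul_mem hPσ hPg) hτ
  rw [inv_mul_cancel_left] at h1
  obtain ⟨k1, k2, k3⟩ := dswap hab hac had hbc hbd hcd
  exact h1.same_type hn hsq hg2 k3 k1 (by rw [k2, hg4])

theorem C_involution {σ : Perm α} (hσ : σ ^ 2 = 1) (hσA : σ ∈ alternatingGroup α) : C T σ := by
  induction hm : σ.support.card using Nat.strong_induction_on generalizing σ with
  | _ m ih =>
  by_cases hσ1 : σ = 1
  · subst hσ1; exact C_one
  obtain ⟨a, b, c, d, hab, hac, had, hbc, hbd, hcd, e1, e2, e3, e4⟩ := two_pairs hσ hσA hσ1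
  obtain ⟨hg2, -, hgA⟩ := dswap hab hac had hbc hbd hcd
  set g := swap a b * swap c d with hg
  have ga : g a = b := by rw [hg, Perm.mul_apply, swap_apply_of_ne_of_ne hac had, swap_apply_left]
  have gb : g b = a := by rw [hg, Perm.mul_apply, swap_apply_of_ne_of_ne hbc hbd, swap_apply_right]
  have gc : g c = d := by rw [hg, Perm.mul_apply, swap_apply_left, swap_apply_of_ne_of_ne had.symm hbd.symm]
  have gd : g d = c := by rw [hg, Perm.mul_apply, swap_apply_right, swap_apply_of_ne_of_ne hac.symm hbc.symm]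
  have gz : ∀ z, z ≠ a → z ≠ b → z ≠ c → z ≠ d → g z = z := fun z h1 h2 h3 h4 => by
    rw [hg, Perm.mul_apply, swap_apply_of_ne_of_ne h3 h4, swap_apply_of_ne_of_ne h1 h2]
  have hcomm : Commute σ g := by
    refine Equiv.ext fun z => ?_
    simp only [Perm.mul_apply]
    by_cases hza : z = a
    · subst hza; rw [ga, e1, e2, gb]
    by_cases hzb : z = b
    · subst hzb; rw [gb, e2, e1, ga]
    by_cases hzc : z = c
    · subst hzc; rw [gc, e3, e4, gd]
    by_cases hzd : z = d
    · subst hzd; rw [gd, e4, e3, gc]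
    rw [gz z hza hzb hzc hzd, gz _ (fun h => hzb (σ.injective (h.trans e2.symm)))
      (fun h => hza (σ.injective (h.trans e1.symm))) (fun h => hzd (σ.injective (h.trans e4.symm)))
      (fun h => hzc (σ.injective (h.trans e3.symm)))]
  have hsub : (σ * g).support ⊂ σ.support := by
    rw [Finset.ssubset_iff_of_subset]
    · exact ⟨a, mem_support.2 (by rw [e1]; exact hab.symm), by
        rw [notMem_support, Perm.mul_apply, ga, e2]⟩
    · intro z
      simp only [mem_support, Perm.mul_apply]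
      intro hz
      by_cases hza : z = a
      · subst hza; rw [ga, e2] at hz; exact absurd rfl hz
      by_cases hzb : z = b
      · subst hzb; rw [gb, e1] at hz; exact absurd rfl hz
      by_cases hzc : z = c
      · subst hzc; rw [gc, e4] at hz; exact absurd rfl hz
      by_cases hzd : z = d
      · subst hzd; rw [gd, e3] at hz; exact absurd rfl hz
      rwa [gz z hza hzb hzc hzd] at hz
  have hprod : (σ * g) ^ 2 = 1 := by rw [hcomm.mul_pow, hσ, hg2, one_mul]
  have h1 := ih _ (hm ▸ Finset.card_lt_card hsub) hprod (mul_mem hσA hgA) rfl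
  obtain ⟨P, hP, hP1, hP2⟩ := isPGroup_pair (p := 2) (σ := σ * g) (τ := g) ⟨1, by rwa [pow_one]⟩
    ⟨1, by rwa [pow_one]⟩ (hcomm.mul_left (Commute.refl g))
  have := h1.mul hT hP hP1 hP2 (C_double hT hn hT1 hab hac had hbc hbd hcd)
  rwa [mul_assoc, ← sq, hg2, mul_one] at this

theorem C_all_two {σ : Perm α} (hσ : ∃ k, σ ^ 2 ^ k = 1) (hσA : σ ∈ alternatingGroup α) : C T σ := by
  induction hm : σ.support.card using Nat.strong_induction_on generalizing σ with
  | _ m ih =>
  by_cases hσ2 : σ ^ 2 = 1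
  · exact C_involution hT hn hT1 hσ2 hσA
  have hσ1 : σ ≠ 1 := fun h => hσ2 (by rw [h, one_pow])
  have sgn : ∀ {c : Perm α}, c.IsCycle → (∃ k, c.support.card = 2 ^ (k + 1)) → sign c = -1 := by
    rintro c hc ⟨k, hk⟩
    rw [hc.sign, hk, (Nat.even_pow.2 ⟨even_two, k.succ_ne_zero⟩).neg_one_pow]
  obtain ⟨c, hc⟩ : ∃ c ∈ σ.cycleFactorsFinset, c.support.card ≠ 2 := by
    by_contra h
    push Not at h
    refine hσ2 (pow_prime_eq_one_iff.2 fun n hn => ?_)
    rw [cycleType_def, Multiset.mem_map] at hn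
    obtain ⟨c, hc, rfl⟩ := hn
    exact h c hc
  obtain ⟨hcyc, hkc, hcomm, hadd, hrest⟩ := factor_spec (p := 2) hc.1 hσ
  have hrest1 : σ * c⁻¹ ≠ 1 := fun h => by
    rw [mul_inv_eq_one] at h
    rw [mem_alternatingGroup, h, sgn hcyc hkc] at hσA
    exact absurd hσA (by decide)
  obtain ⟨e, he⟩ := Finset.nonempty_iff_ne_empty.2 fun h => hrest1 (cycleFactorsFinset_eq_empty_iff.1 h)
  obtain ⟨hecyc, hke, hecomm, headd, herest⟩ := factor_spec (p := 2) he hrest
  have hdis : Disjoint c e := by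
    rw [disjoint_iff_disjoint_support]
    exact ((disjoint_mul_inv_of_mem_cycleFactorsFinset hc.1).disjoint_support.mono_left
      (mem_cycleFactorsFinset_support_le he)).symm
  have hec : sign e = -1 := sgn hecyc hke
  obtain ⟨k, hk⟩ := hkc
  obtain ⟨l, hl⟩ := hke
  rcases k with _ | k
  · exact absurd (by rw [hk, pow_one]) hc.2
  have hk2 : 4 ≤ c.support.card := by
    rw [hk]; exact (show (4 : ℕ) = 2 ^ 2 from rfl) ▸ Nat.pow_le_pow_right two_pos (by omega)
  -- the two first cycles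
  have hpair : C T (c * e) := by
    obtain ⟨d, hd, hsub, hlt, ⟨r, hr⟩, hpow, P, hP, hPc, hPd⟩ := AltCycle.split_cycle hcyc hk
    have hd' : sign d = -1 := sgn hd ⟨r, hr⟩
    have h1A : c * d⁻¹ ∈ alternatingGroup α := by
      rw [mem_alternatingGroup, map_mul, sign_inv, hd', sgn hcyc ⟨k + 1, hk⟩]; rfl
    have h2A : d * e ∈ alternatingGroup α := by
      rw [mem_alternatingGroup, map_mul, hd', hec]; rfl
    have hde : Disjoint d e := by
      rw [disjoint_iff_disjoint_support]
      exact hdis.disjoint_support.mono_left hsub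
    have hde' : ∃ j, (d * e) ^ 2 ^ j = 1 :=
      ⟨(r + 1) + (l + 1), by rw [hde.commute.mul_pow, pow_add, pow_mul, cycle_pow hd hr, one_pow,
        mul_comm (2 ^ (r + 1)), pow_mul, cycle_pow hecyc hl, one_pow, one_mul]⟩
    have h2 : C T (d * e) := by
      refine ih _ ?_ hde' h2A rfl
      rw [hde.support_mul, Finset.card_union_of_disjoint hde.disjoint_support]
      omega
    have h1 : C T (c * d⁻¹) := C_involution hT hn hT1 hpow h1A
    have hce : Commute e c := hdis.symm.commute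
    obtain ⟨Q, hQ, hQ1, hQ2⟩ : ∃ Q : Subgroup (Perm α), IsPGroup 2 Q ∧ c * d⁻¹ ∈ Q ∧ d * e ∈ Q := by
      have hep : IsPGroup 2 (Subgroup.zpowers e) :=
        IsPGroup.of_card (n := l + 1) ((Nat.card_zpowers e).trans (hecyc.orderOf.trans hl))
      have hP' : IsPGroup 2 (P ⊓ Subgroup.centralizer {e} : Subgroup (Perm α)) := hP.to_le inf_le_left
      have hN : Subgroup.zpowers e ≤
          Subgroup.normalizer ((P ⊓ Subgroup.centralizer {e} : Subgroup (Perm α)) : Set (Perm α)) := by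
        refine Subgroup.zpowers_le.2 (Subgroup.mem_normalizer_fintype ?_)
        intro q hq
        have := Subgroup.mem_centralizer_singleton_iff.1 hq.2
        rwa [← this, mul_inv_cancel_right]
      have hcm : c ∈ P ⊓ Subgroup.centralizer {e} := ⟨hPc, Subgroup.mem_centralizer_singleton_iff.2 hce.symm⟩
      have hdm : d ∈ P ⊓ Subgroup.centralizer {e} :=
        ⟨hPd, Subgroup.mem_centralizer_singleton_iff.2 hde.commute⟩
      exact ⟨_, IsPGroup.to_sup_of_normal_right' hep hP' hN, Subgroup.mem_sup_right (mul_mem hcm (inv_mem hdm)),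
        mul_mem (Subgroup.mem_sup_right hdm) (Subgroup.mem_sup_left (Subgroup.mem_zpowers e))⟩
    have := h1.mul hT hQ hQ1 hQ2 h2
    rwa [mul_assoc, inv_mul_cancel_left] at this
  by_cases hrr : σ * c⁻¹ * e⁻¹ = 1
  · rw [mul_inv_eq_one, mul_inv_eq_iff_eq_mul] at hrr
    rw [hrr, hdis.symm.commute.eq]
    exact hpair
  have hceA : c * e ∈ alternatingGroup α := hpair.even
  have hrA : σ * c⁻¹ * e⁻¹ ∈ alternatingGroup α := by
    rw [show σ * c⁻¹ * e⁻¹ = σ * (e * c)⁻¹ by group, hdis.symm.commute.eq]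
    exact mul_mem hσA (inv_mem hceA)
  have hr : C T (σ * c⁻¹ * e⁻¹) := ih _ (by omega) herest hrA rfl
  have hd2 : Disjoint (σ * c⁻¹ * e⁻¹) c := by
    rw [disjoint_iff_disjoint_support]
    refine (disjoint_mul_inv_of_mem_cycleFactorsFinset hc.1).disjoint_support.mono_left ?_
    refine (support_mul_le _ _).trans (Finset.union_subset le_rfl ?_)
    rw [support_inv]
    exact mem_cycleFactorsFinset_support_le he
  obtain ⟨P, hP, hP1, hP2⟩ := isPGroup_pair (p := 2) (σ := σ * c⁻¹ * e⁻¹) (τ := c * e) herest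
    ⟨(k + 2) + (l + 1), by rw [hdis.commute.mul_pow, pow_add, pow_mul, cycle_pow hcyc hk, one_pow,
      mul_comm (2 ^ (k + 2)), pow_mul, cycle_pow hecyc hl, one_pow, one_mul]⟩
    (hd2.commute.mul_right hecomm)
  have := hr.mul hT hP hP1 hP2 hpair
  rwa [hdis.commute.eq, ← mul_assoc, inv_mul_cancel_right, inv_mul_cancel_right] at this

end Cfsg.Agent.Lib.Fusion.AltClosed
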