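import Mathlib

/-!
A cycle of length `p ^ (s + 1)` is the product of an element of order `p` and a cycle of length `p ^ s`,
both lying in a common `p`-group.
-/

set_option autoImplicit false

namespace Cfsg.Agent.Lib.Fusion.AltCycle

open Equiv Equiv.Perm

variable {α : Type*} [Fintype α] [DecidableEq α]

/-- The elements commuting with `D` and preserving each of its orbits. -/
def orbitGroup (D : Perm α) : Subgroup (Perm α) where
  carrier := {g | g * D = D * g ∧ ∀ x, SameCycle D x (g x)}
  one_mem' := ⟨by simp, fun x => SameCycle.refl _ _⟩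
  mul_mem' := by
    rintro g h ⟨hg, hg'⟩ ⟨hh, hh'⟩
    exact ⟨by rw [mul_assoc, hh, ← mul_assoc, hg, mul_assoc], fun x => (hh' x).trans (hg' (h x))⟩
  inv_mem' := by
    rintro g ⟨hg, hg'⟩
    refine ⟨?_, fun x => ?_⟩
    · rw [eq_comm, eq_inv_mul_iff_mul_eq, ← mul_assoc, hg, mul_assoc, mul_inv_cancel, mul_one]
    · have := hg' (g⁻¹ x)
      rw [← Perm.mul_apply, mul_inv_cancel, Perm.one_apply] at this
      exact this.symm

theorem apply_eq_zpow {D g : Perm α} (hg : g ∈ orbitGroup D) (x : α) :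
    ∃ i : ℤ, g x = (D ^ i) x ∧ ∀ j : ℤ, g ((D ^ j) x) = (D ^ (i + j)) x := by
  obtain ⟨i, hi⟩ := hg.2 x
  refine ⟨i, hi.symm, fun j => ?_⟩
  have hc : Commute g (D ^ j) := (show Commute g D from hg.1).zpow_right j
  rw [← Perm.mul_apply, hc.eq, Perm.mul_apply, ← hi, ← Perm.mul_apply, ← zpow_add, add_comm]

theorem orbitGroup_comm {D g h : Perm α} (hg : g ∈ orbitGroup D) (hh : h ∈ orbitGroup D) :
    g * h = h * g := by
  ext x
  obtain ⟨i, hi, hi'⟩ := apply_eq_zpow hg x
  obtain ⟨j, hj, hj'⟩ := apply_eq_zpow hh x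
  rw [Perm.mul_apply, Perm.mul_apply, hi, hj, hi', hj', add_comm]

theorem orbitGroup_pow {D g : Perm α} (hg : g ∈ orbitGroup D) {k : ℕ} (hD : D ^ k = 1) : g ^ k = 1 := by
  ext x
  obtain ⟨i, hi, hi'⟩ := apply_eq_zpow hg x
  have key : ∀ m : ℕ, (g ^ m) x = (D ^ ((m : ℤ) * i)) x := by
    intro m
    induction m with
    | zero => simp
    | succ m ih =>
      rw [pow_succ', Perm.mul_apply, ih, hi']
      congr 2
      push_cast
      ring
  rw [key, zpow_mul, zpow_natCast, hD, one_zpow]

theorem conj_mem_orbitGroup {D g c : Perm α} (hc : c * D = D * c) (hg : g ∈ orbitGroup D) :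
    c * g * c⁻¹ ∈ orbitGroup D := by
  have hc' : c⁻¹ * D = D * c⁻¹ := by
    rw [inv_mul_eq_iff_eq_mul, ← mul_assoc, hc, mul_inv_cancel_right]
  refine ⟨?_, fun x => ?_⟩
  · rw [mul_assoc, hc', ← mul_assoc, mul_assoc c g D, hg.1, ← mul_assoc, hc, mul_assoc, mul_assoc, mul_assoc]
  · obtain ⟨i, hi⟩ := hg.2 (c⁻¹ x)
    refine ⟨i, ?_⟩
    have hci : c * D ^ i = D ^ i * c := ((show Commute c D from hc).zpow_right i).eq
    have := congrArg c hi
    rw [← Perm.mul_apply, hci, Perm.mul_apply, Perm.coe_inv, Equiv.apply_symm_apply] at this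
    exact this

/-- Splitting a long cycle. -/
theorem split_cycle {p : ℕ} [hp : Fact p.Prime] {c : Perm α} (hc : c.IsCycle) {s : ℕ}
    (hs : c.support.card = p ^ (s + 2)) :
    ∃ d : Perm α, d.IsCycle ∧ d.support ⊆ c.support ∧ d.support.card < c.support.card ∧
      (∃ k : ℕ, d.support.card = p ^ (k + 1)) ∧ (c * d⁻¹) ^ p = 1 ∧
      ∃ P : Subgroup (Perm α), IsPGroup p P ∧ c ∈ P ∧ d ∈ P := by
  obtain ⟨a, ha⟩ : c.support.Nonempty := Finset.card_pos.1 (hs ▸ pow_pos hp.out.pos _)
  have ha' : c a ≠ a := mem_support.1 ha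
  have hord : orderOf c = p ^ (s + 2) := by rw [hc.orderOf, hs]
  set D := c ^ p with hD
  have hDord : D ^ p ^ (s + 1) = 1 := by
    rw [hD, ← pow_mul, ← pow_succ', ← hord, pow_orderOf_eq_one]
  have hcD : c * D = D * c := (Commute.self_pow c p).eq
  have hper : ∀ i : ℤ, (c ^ i) a = a → (p ^ (s + 2) : ℤ) ∣ i := by
    intro i hi
    have h1 : c ^ i = 1 := by
      ext x
      by_cases hx : c x = x
      · rw [zpow_apply_eq_self_of_apply_eq_self hx, Perm.one_apply]
      · obtain ⟨j, rfl⟩ := hc.sameCycle ha' hx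
        rw [← Perm.mul_apply, (Commute.zpow_zpow_self c i j).eq, Perm.mul_apply, hi, Perm.one_apply]
    rw [show (p ^ (s + 2) : ℤ) = ((orderOf c : ℕ) : ℤ) by rw [hord]; push_cast; rfl]
    exact orderOf_dvd_iff_zpow_eq_one.2 h1
  have hDa : D a ≠ a := fun h => by
    have h1 := hper p (by rw [zpow_natCast]; exact h)
    have h2 : p ^ (s + 2) ∣ p ^ 1 := by rw [pow_one]; exact_mod_cast h1
    have := (Nat.pow_dvd_pow_iff_le_right hp.out.one_lt).1 h2
    omega
  set d := D.cycleOf a with hd
  have hdc : d.IsCycle := isCycle_cycleOf D hDa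
  have hsub : d.support ⊆ c.support :=
    (support_cycleOf_le D a).trans (support_pow_le c p)
  have hdA : d ∈ orbitGroup D := by
    refine ⟨?_, fun x => ?_⟩
    · ext x
      simp only [Perm.mul_apply, hd, cycleOf_apply, sameCycle_apply_right]
      split_ifs <;> rfl
    · rw [hd, cycleOf_apply]
      split_ifs
      · exact sameCycle_apply_right.2 (SameCycle.refl _ _)
      · exact SameCycle.refl _ _
  have hdord : orderOf d ∣ p ^ (s + 1) := orderOf_dvd_of_pow_eq_one (orbitGroup_pow hdA hDord)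
  rw [hdc.orderOf] at hdord
  have hlt : d.support.card < c.support.card := by
    rw [hs]
    exact lt_of_le_of_lt (Nat.le_of_dvd (pow_pos hp.out.pos _) hdord)
      (Nat.pow_lt_pow_right hp.out.one_lt (by omega))
  refine ⟨d, hdc, hsub, hlt, ?_, ?_, ?_⟩
  · obtain ⟨k, -, hk⟩ := (Nat.dvd_prime_pow hp.out).1 hdord
    rcases k with _ | k
    · have := hdc.two_le_card_support
      rw [hk, pow_zero] at this
      omega
    · exact ⟨k, hk⟩
  · -- the order of the first factor
    have hsame : ∀ m : ℤ, SameCycle D a ((c ^ m) a) ↔ (p : ℤ) ∣ m := by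
      intro m
      constructor
      · rintro ⟨j, hj⟩
        rw [hD, ← zpow_natCast, ← zpow_mul] at hj
        have h1 : (c ^ (m - p * j)) a = a := by
          rw [sub_eq_neg_add, zpow_add, Perm.mul_apply, ← hj, ← Perm.mul_apply, ← zpow_add, neg_add_cancel,
            zpow_zero, Perm.one_apply]
        have h2 := (dvd_trans (dvd_pow_self (p : ℤ) (by omega)) (hper _ h1))
        simpa using dvd_add h2 (dvd_mul_right (p : ℤ) j)
      · rintro ⟨j, rfl⟩
        exact ⟨j, by rw [hD, ← zpow_natCast, ← zpow_mul]⟩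
    have hdinv : ∀ y, d⁻¹ y = if SameCycle D a y then D⁻¹ y else y := by
      intro y
      rw [hd, cycleOf_inv, cycleOf_apply]
      simp only [sameCycle_inv]
    have hstep : ∀ q : ℤ, ∀ r : ℕ, r < p →
        (c * d⁻¹) ((c ^ (p * q + (r : ℤ) + 1)) a) = (c ^ (p * q + (((r + 1) % p : ℕ) : ℤ) + 1)) a := by
      intro q r hr
      rw [Perm.mul_apply, hdinv]
      rcases Nat.lt_or_ge (r + 1) p with h | h
      · rw [if_neg, Nat.mod_eq_of_lt h, ← Perm.mul_apply, ← zpow_one_add]
        · congr 2; push_cast; ring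
        · rw [hsame]
          intro hdvd
          have h1 : (p : ℤ) ∣ ((r + 1 : ℕ) : ℤ) := by
            have := dvd_sub hdvd (dvd_mul_right (p : ℤ) q)
            rw [show (p : ℤ) * q + (r : ℤ) + 1 - (p : ℤ) * q = ((r + 1 : ℕ) : ℤ) by push_cast; ring] at this
            exact this
          have := Nat.le_of_dvd (by omega) (Int.natCast_dvd_natCast.1 h1)
          omega
      · have hrp : r + 1 = p := by omega
        have hpz : (r : ℤ) + 1 = p := by exact_mod_cast hrp
        rw [if_pos, hrp, Nat.mod_self, hD, ← zpow_natCast, ← zpow_neg, ← Perm.mul_apply, ← Perm.mul_apply,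
          ← zpow_one_add, ← zpow_add]
        · congr 2; push_cast; omega
        · rw [hsame, add_assoc, hpz]
          exact dvd_add (dvd_mul_right _ _) dvd_rfl
    ext x
    by_cases hx : x ∈ c.support
    · obtain ⟨m, hm⟩ := hc.sameCycle ha' (mem_support.1 hx)
      have hp0 : (p : ℤ) ≠ 0 := by exact_mod_cast hp.out.ne_zero
      set q := (m - 1) / (p : ℤ)
      obtain ⟨r, hr⟩ := Int.eq_ofNat_of_zero_le (Int.emod_nonneg (m - 1) hp0)
      have hrp : r < p := by
        have := Int.emod_lt_of_pos (m - 1) (show (0 : ℤ) < p by exact_mod_cast hp.out.pos)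
        omega
      have hm' : m = p * q + (r : ℤ) + 1 := by
        have := Int.mul_ediv_add_emod (m - 1) p
        simp only [q]
        omega
      have key : ∀ i : ℕ, ((c * d⁻¹) ^ i) x = (c ^ (p * q + (((r + i) % p : ℕ) : ℤ) + 1)) a := by
        intro i
        induction i with
        | zero => rw [pow_zero, Perm.one_apply, add_zero, Nat.mod_eq_of_lt hrp, ← hm', hm]
        | succ i ih =>
          rw [pow_succ', Perm.mul_apply, ih, hstep q _ (Nat.mod_lt _ hp.out.pos), Nat.mod_add_mod, show r + i + 1 = r + (i + 1) from Nat.add_assoc _ _ _]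
      rw [key, Nat.add_mod_right, Nat.mod_eq_of_lt hrp, ← hm', hm, Perm.one_apply]
    · have h1 : (c * d⁻¹) x = x := by
        rw [Perm.mul_apply]
        have : d⁻¹ x = x := by
          rw [← notMem_support, support_inv]
          exact fun h => hx (hsub h)
        rw [this, notMem_support.1 hx]
      exact pow_apply_eq_self_of_apply_eq_self h1 p
  · -- the common group
    have hN : Subgroup.zpowers c ≤ Subgroup.normalizer ((orbitGroup D : Subgroup (Perm α)) : Set (Perm α)) :=
      Subgroup.zpowers_le.2 (Subgroup.mem_normalizer_fintype fun g hg => conj_mem_orbitGroup hcD hg)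
    have hA : IsPGroup p (orbitGroup D) := fun g =>
      ⟨s + 1, Subtype.ext (orbitGroup_pow g.2 hDord)⟩
    exact ⟨_, IsPGroup.to_sup_of_normal_right' (IsPGroup.of_card (n := s + 2) ((Nat.card_zpowers c).trans hord))
      hA hN, Subgroup.mem_sup_left (Subgroup.mem_zpowers c), Subgroup.mem_sup_right hdA⟩

end Cfsg.Agent.Lib.Fusion.AltCycle
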