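import Cfsg.Agent.Lib.Fusion.AltBlocks
import Cfsg.Agent.Lib.Classical.Simple

/-!
An affine plane inside the first `p` blocks, and the shape of permutations normalizing the translations.
-/

set_option autoImplicit false

namespace Cfsg.Agent.Lib.Fusion.AltBlocks

open Equiv Equiv.Perm
open scoped MatrixGroups

variable {m p r : ℕ} [hp : Fact p.Prime]

local notation "V" => (ZMod p × ZMod p)

/-- The first `p` blocks. -/
def blockEmb (hm : p ≤ m) : ZMod p ↪ Fin m :=
  ⟨fun s => ⟨s.val, lt_of_lt_of_le (ZMod.val_lt s) hm⟩, fun s t h => ZMod.val_injective p (Fin.ext_iff.1 h)⟩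

/-- The plane. -/
def plane (hm : p ≤ m) : V ↪ Pt m p r :=
  ⟨fun z => .inl (blockEmb hm z.1, z.2), fun z w h => by
    simp only [Sum.inl.injEq, Prod.mk.injEq] at h
    exact Prod.ext ((blockEmb hm).injective h.1) h.2⟩

/-- Permutations of the plane acting on the points. -/
noncomputable def via (hm : p ≤ m) : Perm V →* Perm (Pt m p r) := viaEmbeddingHom (plane hm)

theorem via_plane (hm : p ≤ m) (e : Perm V) (z : V) :
    (via hm e : Perm (Pt m p r)) (plane hm z) = plane hm (e z) :=
  viaEmbedding_apply e (plane hm) z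

theorem via_out (hm : p ≤ m) (e : Perm V) {i : Fin m} (hi : i ∉ Set.range (blockEmb hm)) (x : ZMod p) :
    (via hm e : Perm (Pt m p r)) (.inl (i, x)) = .inl (i, x) := by
  refine viaEmbedding_apply_of_notMem e (plane hm) _ ?_
  rintro ⟨z, hz⟩
  exact hi ⟨z.1, congrArg Prod.fst (Sum.inl.inj hz)⟩

theorem via_inr (hm : p ≤ m) (e : Perm V) (k : Fin r) :
    (via hm e : Perm (Pt m p r)) (.inr k) = .inr k := by
  refine viaEmbedding_apply_of_notMem e (plane hm) _ ?_
  rintro ⟨z, hz⟩
  exact Sum.inl_ne_inr hz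

/-- The points are the plane, the other blocks and the further points. -/
theorem pt_cases (hm : p ≤ m) (y : Pt m p r) : (∃ z, y = plane hm z) ∨
    (∃ i, i ∉ Set.range (blockEmb hm) ∧ ∃ x, y = .inl (i, x)) ∨ ∃ k, y = .inr k := by
  rcases y with ⟨i, x⟩ | k
  · by_cases hi : i ∈ Set.range (blockEmb hm)
    · obtain ⟨s, rfl⟩ := hi; exact Or.inl ⟨(s, x), rfl⟩
    · exact Or.inr (Or.inl ⟨i, hi, x, rfl⟩)
  · exact Or.inr (Or.inr ⟨k, rfl⟩)

/-- Translations off the plane commute with the plane. -/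
theorem via_comm_tr (hm : p ≤ m) (e : Perm V) {b : Fin m → ZMod p} (hb : ∀ s, b (blockEmb hm s) = 0) :
    (via hm e : Perm (Pt m p r)) * tr (.ofAdd b) = tr (.ofAdd b) * via hm e := by
  have hfix : ∀ z, (tr (.ofAdd b) : Perm (Pt m p r)) (plane hm z) = plane hm z := fun z => by
    show tr (.ofAdd b) (.inl (_, _)) = _
    rw [tr_inl, hb, add_zero]
    rfl
  refine Equiv.ext fun y => ?_
  simp only [Perm.mul_apply]
  rcases pt_cases hm y with ⟨z, rfl⟩ | ⟨i, hi, x, rfl⟩ | ⟨k, rfl⟩
  · rw [hfix, via_plane, hfix]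
  · rw [tr_inl, via_out hm e hi, via_out hm e hi, tr_inl]
  · rw [tr_inr, via_inr, tr_inr]

/-- Translation of the plane. -/
def transl : Multiplicative V →* Perm V where
  toFun v := Equiv.addRight v.toAdd
  map_one' := by ext z <;> simp
  map_mul' v w := by ext z <;> simp [add_comm, add_left_comm]

theorem transl_apply (v z : V) : transl (.ofAdd v) z = z + v := rfl

/-- The action of a matrix on the plane. -/
def linFun (M : SL(2, ZMod p)) (z : V) : V :=
  (M.1 0 0 * z.1 + M.1 0 1 * z.2, M.1 1 0 * z.1 + M.1 1 1 * z.2)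

theorem linFun_mul (M N : SL(2, ZMod p)) (z : V) : linFun (M * N) z = linFun M (linFun N z) := by
  simp only [linFun, Matrix.SpecialLinearGroup.coe_mul, Matrix.mul_apply, Fin.sum_univ_two]
  ext <;> ring

theorem linFun_one (z : V) : linFun (1 : SL(2, ZMod p)) z = z := by
  simp [linFun]

/-- The special linear group on the plane. -/
def lin : SL(2, ZMod p) →* Perm V where
  toFun M := ⟨linFun M, linFun M⁻¹,
    fun z => by rw [← linFun_mul, inv_mul_cancel, linFun_one],
    fun z => by rw [← linFun_mul, mul_inv_cancel, linFun_one]⟩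
  map_one' := Equiv.ext linFun_one
  map_mul' M N := Equiv.ext fun z => linFun_mul M N z

theorem lin_transl (M : SL(2, ZMod p)) (v : V) :
    lin M * transl (.ofAdd v) = transl (.ofAdd (linFun M v)) * lin M := by
  refine Equiv.ext fun z => ?_
  show linFun M (z + v) = linFun M z + linFun M v
  simp only [linFun, Prod.fst_add, Prod.snd_add, Prod.mk_add_mk]
  ext <;> ring

theorem linFun_diag {c : ZMod p} (hc : c ≠ 0) (z : V) :
    linFun (Matrix.SpecialLinearGroup.diag2n (F := ZMod p) (ι := Fin 2) zero_ne_one c hc) z = (c * z.1, c⁻¹ * z.2) := by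
  unfold linFun
  rw [Matrix.SpecialLinearGroup.diag2n_coe, Matrix.diagonal_apply_eq, Matrix.diagonal_apply_eq,
    Matrix.diagonal_apply_ne _ (by decide : (0 : Fin 2) ≠ 1), Matrix.diagonal_apply_ne _ (by decide : (1 : Fin 2) ≠ 0),
    if_pos rfl, if_neg (by decide : ¬ (1 : Fin 2) = 0), if_pos rfl, zero_mul, zero_mul, zero_add, add_zero]

/-- A block torus element and block permutation inside the plane. -/
theorem via_diag (hm : p ≤ m) (a : (ZMod p)ˣ) :
    ∃ (π : Perm (Fin m)) (u : Fin m → (ZMod p)ˣ), ∏ i, u i = a ∧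
      (via hm (lin (Matrix.SpecialLinearGroup.diag2n (F := ZMod p) (ι := Fin 2) zero_ne_one ((a⁻¹ : (ZMod p)ˣ) : ZMod p)
        (Units.ne_zero _))) : Perm (Pt m p r)) = aff π u 0 := by
  classical
  refine ⟨(Units.mulLeft a⁻¹ : Perm (ZMod p)).viaEmbedding (blockEmb hm),
    fun i => if i ∈ Finset.univ.image (blockEmb hm) then a else 1, ?_, ?_⟩
  · rw [Finset.prod_ite, Finset.prod_const_one, mul_one, Finset.prod_const,
      show Finset.univ.filter (fun i => i ∈ Finset.univ.image (blockEmb hm)) = Finset.univ.image (blockEmb hm) by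
        ext; simp,
      Finset.card_image_of_injective _ (blockEmb hm).injective, Finset.card_univ, ZMod.card]
    exact Units.ext (by rw [Units.val_pow_eq_pow_val, ZMod.pow_card])
  · refine Equiv.ext fun y => ?_
    rcases pt_cases hm y with ⟨⟨s, x⟩, rfl⟩ | ⟨i, hi, x, rfl⟩ | ⟨k, rfl⟩
    · rw [via_plane]
      show _ = aff _ _ 0 (.inl (blockEmb hm s, x))
      rw [aff_inl, viaEmbedding_apply, if_pos (by simp)]
      show plane hm (linFun _ (s, x)) = _
      rw [linFun_diag]
      show Sum.inl (blockEmb hm (((a⁻¹ : (ZMod p)ˣ) : ZMod p) * s), ((a⁻¹ : (ZMod p)ˣ) : ZMod p)⁻¹ * x) = _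
      rw [← Units.val_inv_eq_inv_val, inv_inv, Pi.zero_apply, add_zero]
      rfl
    · rw [via_out hm _ hi, aff_inl, viaEmbedding_apply_of_notMem _ _ _ hi, if_neg (by simpa using hi)]
      simp
    · rw [via_inr, aff_inr]

/-- Permutations carrying each block translation to a block translation are monomial. -/
theorem exists_aff (hr : r ≤ 1) {g : Perm (Pt m p r)} (π : Fin m → Fin m) (k : Fin m → ZMod p)
    (h : ∀ i, g * tr (.ofAdd (Pi.single i 1)) = tr (.ofAdd (Pi.single (π i) (k i))) * g) :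
    ∃ (π' : Perm (Fin m)) (u : Fin m → (ZMod p)ˣ) (b : Fin m → ZMod p),
      g = aff π' u b ∧ (∀ i, π' i = π i) ∧ ∀ i, (u i : ZMod p) = k i := by
  have hmove : ∀ i, k i ≠ 0 ∧ ∃ b, g (.inl (i, 0)) = .inl (π i, b) := by
    intro i
    have h1 := congrArg (fun e : Perm (Pt m p r) => e (.inl (i, 0))) (h i)
    simp only [Perm.mul_apply, tr_inl, Pi.single_eq_same, zero_add] at h1
    have hne : g (.inl (i, 1)) ≠ g (.inl (i, 0)) := fun e => by
      simpa using g.injective e
    rcases hg : g (.inl (i, 0)) with ⟨j, b⟩ | c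
    · rw [hg, tr_inl] at h1
      rw [hg] at hne
      rcases eq_or_ne j (π i) with rfl | hj
      · rw [Pi.single_eq_same] at h1
        exact ⟨fun h0 => hne (by rw [h1, h0, add_zero]), b, rfl⟩
      · rw [Pi.single_eq_of_ne hj, add_zero] at h1
        exact absurd h1 hne
    · rw [hg, tr_inr] at h1
      rw [hg] at hne
      exact absurd h1 hne
  choose hk b hb using hmove
  have hg : ∀ i x, g (.inl (i, x)) = .inl (π i, k i * x + b i) := by
    intro i x
    have h1 : g * tr (.ofAdd (Pi.single i 1)) ^ x.val = tr (.ofAdd (Pi.single (π i) (k i))) ^ x.val * g :=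
      (SemiconjBy.pow_right (show SemiconjBy g _ _ from h i) x.val)
    rw [← map_pow (tr (m := m) (p := p) (r := r)), ← map_pow (tr (m := m) (p := p) (r := r)),
      ← ofAdd_nsmul, ← ofAdd_nsmul] at h1
    have h2 := congrArg (fun e : Perm (Pt m p r) => e (.inl (i, 0))) h1
    simp only [Perm.mul_apply, tr_inl, hb, Pi.smul_apply, Pi.single_eq_same, zero_add] at h2
    simpa [nsmul_eq_mul, ZMod.natCast_zmod_val, add_comm, mul_comm] using h2
  have hinj : Function.Injective π := by
    intro i i' e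
    by_contra hne
    have h1 : g (.inl (i, (k i)⁻¹ * (b i' - b i))) = g (.inl (i', 0)) := by
      rw [hg, hg, e, ← mul_assoc, mul_inv_cancel₀ (hk i)]
      simp
    exact hne (congrArg Prod.fst (Sum.inl.inj (g.injective h1)))
  refine ⟨Equiv.ofBijective π ⟨hinj, Finite.injective_iff_surjective.1 hinj⟩, fun i => Units.mk0 (k i) (hk i), b,
    ?_, fun i => rfl, fun i => rfl⟩
  refine Equiv.ext ?_
  rintro (⟨i, x⟩ | c)
  · rw [hg, aff_inl]; rfl
  · rw [aff_inr]
    rcases hc : g (.inr c) with ⟨j, y⟩ | c'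
    · exfalso
      obtain ⟨i, rfl⟩ := Finite.injective_iff_surjective.1 hinj j
      have h1 : g (.inl (i, (k i)⁻¹ * (y - b i))) = g (.inr c) := by
        rw [hg, hc, ← mul_assoc, mul_inv_cancel₀ (hk i)]
        simp
      exact Sum.inl_ne_inr (g.injective h1)
    · congr 1
      exact Fin.ext (by have := c.isLt; have := c'.isLt; omega)

/-- The translations are their own centralizer. -/
theorem eq_tr_of_comm (hr : r ≤ 1) {g : Perm (Pt m p r)}
    (h : ∀ i, g * tr (.ofAdd (Pi.single i 1)) = tr (.ofAdd (Pi.single i 1)) * g) :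
    ∃ b, g = tr (.ofAdd b) := by
  obtain ⟨π, u, b, rfl, hπ, hu⟩ := exists_aff hr id (fun _ => 1) h
  refine ⟨b, ?_⟩
  rw [show π = 1 from Equiv.ext hπ, show u = 1 from funext fun i => Units.ext (hu i)]
  rfl

end Cfsg.Agent.Lib.Fusion.AltBlocks
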