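import Cfsg.Agent.Lib.Fusion.GroupClimb
import Cfsg.Agent.Lib.Fusion.AltPlane

/-!
Permutations inducing maps of a subsystem on a fixed subgroup.
-/

set_option autoImplicit false

namespace Cfsg.Agent.Lib.Fusion.AltBlocks

open Equiv Equiv.Perm Cfsg Cfsg.FusionSystem

variable {α : Type*} [Fintype α] [DecidableEq α] {H : Type*} [Group H]
  (ι : alternatingGroup α ≃* H)

/-- The image in `H` of a group of permutations. -/
def img' (X : Subgroup (Perm α)) : Subgroup H := (X.subgroupOf (alternatingGroup α)).map ι.toMonoidHom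

theorem mem_img' {X : Subgroup (Perm α)} {x : alternatingGroup α} : ι x ∈ img' ι X ↔ (x : Perm α) ∈ X := by
  simp [img', Subgroup.mem_subgroupOf]

theorem img'_mono {X Y : Subgroup (Perm α)} (h : X ≤ Y) : img' ι X ≤ img' ι Y :=
  Subgroup.map_mono (Subgroup.comap_mono h)

theorem normal_img' [Finite H] {X : Subgroup (Perm α)} {g : Perm α} (hg : g ∈ alternatingGroup α)
    (h : ∀ x ∈ X, g * x * g⁻¹ ∈ X) : ι ⟨g, hg⟩ ∈ Subgroup.normalizer (img' ι X : Set H) := by
  refine mem_normalizer_of_conj_mem ?_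
  intro y hy
  obtain ⟨x, rfl⟩ := ι.surjective y
  rw [← map_inv, ← map_mul, ← map_mul]
  exact (mem_img' ι).2 (h x ((mem_img' ι).1 hy))

variable {S : Subgroup H} (E : FusionSystem S) (X : Subgroup (Perm α))

/-- The permutations inducing a map of `E` on the image of `X`. -/
def goodSub : Subgroup (Perm α) where
  carrier := {g | ∃ (hA : g ∈ alternatingGroup α) (hN : ι ⟨g, hA⟩ ∈ Subgroup.normalizer (img' ι X : Set H)),
    conjAut (img' ι X) hN ∈ E.autGroup (img' ι X)}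
  one_mem' := ⟨one_mem _, by
    rw [show (⟨1, one_mem _⟩ : alternatingGroup α) = 1 from rfl, map_one]; exact one_mem _, by
    convert Subgroup.one_mem _
    ext x
    show ι (1 : alternatingGroup α) * (x : H) * (ι (1 : alternatingGroup α))⁻¹ = (x : H)
    rw [map_one, one_mul, inv_one, mul_one]⟩
  mul_mem' := by
    rintro a b ⟨ha, ha', ha''⟩ ⟨hb, hb', hb''⟩
    refine ⟨mul_mem ha hb, by
      rw [show (⟨a * b, mul_mem ha hb⟩ : alternatingGroup α) = ⟨a, ha⟩ * ⟨b, hb⟩ from rfl, map_mul]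
      exact mul_mem ha' hb', ?_⟩
    convert Subgroup.mul_mem _ ha'' hb'' using 1
    ext x
    simp only [MulAut.mul_apply, conjAut_apply,
      show (⟨a * b, mul_mem ha hb⟩ : alternatingGroup α) = ⟨a, ha⟩ * ⟨b, hb⟩ from rfl, map_mul]
    group
  inv_mem' := by
    rintro a ⟨ha, ha', ha''⟩
    refine ⟨inv_mem ha, by
      rw [show (⟨a⁻¹, inv_mem ha⟩ : alternatingGroup α) = ⟨a, ha⟩⁻¹ from rfl, map_inv]
      exact inv_mem ha', ?_⟩
    convert Subgroup.inv_mem _ ha'' using 1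
    apply eq_inv_of_mul_eq_one_left
    ext x
    simp only [MulAut.mul_apply, MulAut.one_apply, conjAut_apply,
      show (⟨a⁻¹, inv_mem ha⟩ : alternatingGroup α) = ⟨a, ha⟩⁻¹ from rfl, map_inv]
    group

variable [Finite H] {p : ℕ} [hp : Fact p.Prime] (hS : IsPGroup p S)
  (hF : (groupFusionSystem S).IsSaturated p) (hEi : E.IsInvariantIn (groupFusionSystem S))
  (hXS : img' ι X ≤ S)
include hS hF hEi hXS

/-- Elements of `p`-power order normalizing `X`. -/
theorem mem_goodSub_of_pow {g : Perm α} (hA : g ∈ alternatingGroup α) {k : ℕ} (hk : g ^ p ^ k = 1)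
    (hN : ∀ x ∈ X, g * x * g⁻¹ ∈ X) : g ∈ goodSub ι E X := by
  have hN' := normal_img' ι hA hN
  refine ⟨hA, hN', pElement_mem_autGroup' hS hF hEi hXS ((mem_autGroup hXS).2
    ⟨hXS, fun y => hXS (conjAut (img' ι X) hN' y).2, ι ⟨g, hA⟩, fun y => rfl⟩) ⟨k, ?_⟩⟩
  show (img' ι X).normalizerMonoidHom ⟨ι ⟨g, hA⟩, hN'⟩ ^ p ^ k = 1
  rw [← map_pow]
  convert map_one (img' ι X).normalizerMonoidHom
  refine Subtype.ext ?_
  show ι ⟨g, hA⟩ ^ p ^ k = 1
  rw [← map_pow, show (⟨g, hA⟩ : alternatingGroup α) ^ p ^ k = 1 from Subtype.ext hk, map_one]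

/-- Invariance under the elements normalizing `X`. -/
theorem conj_mem_goodSub {g a : Perm α} (hA : g ∈ alternatingGroup α) (hN : ∀ x ∈ X, g * x * g⁻¹ ∈ X)
    (ha : a ∈ goodSub ι E X) : g * a * g⁻¹ ∈ goodSub ι E X := by
  obtain ⟨haA, haN, haE⟩ := ha
  have hN' := normal_img' ι hA hN
  have heq : ι (⟨g * a * g⁻¹, mul_mem (mul_mem hA haA) (inv_mem hA)⟩ : alternatingGroup α) =
      ι ⟨g, hA⟩ * ι ⟨a, haA⟩ * (ι ⟨g, hA⟩)⁻¹ := by
    rw [← map_inv, ← map_mul, ← map_mul]; rfl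
  refine ⟨mul_mem (mul_mem hA haA) (inv_mem hA), heq ▸ mul_mem (mul_mem hN' haN) (inv_mem hN'), ?_⟩
  have hg : conjAut (img' ι X) hN' ∈ (groupFusionSystem S).autGroup (img' ι X) := (mem_autGroup hXS).2
    ⟨hXS, fun y => hXS (conjAut (img' ι X) hN' y).2, ι ⟨g, hA⟩, fun y => rfl⟩
  convert conj_mem_of_mem_normalizer (autGroup_le_normalizer hEi hXS hg) haE using 1
  rw [eq_mul_inv_iff_mul_eq]
  ext y
  simp only [MulAut.mul_apply, conjAut_apply, heq]
  group

end Cfsg.Agent.Lib.Fusion.AltBlocks
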