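import Cfsg.Agent.Lib.Fusion.AltGood
import Cfsg.Agent.Lib.Fusion.AltClosed
import Cfsg.Agent.Lib.Fusion.SLUpper

/-!
Automorphisms of the Sylow subgroup in an invariant subsystem of the fusion system of an alternating group.
-/

set_option autoImplicit false

namespace Cfsg.Agent.Lib.Fusion.AltBlocks

open Equiv Equiv.Perm Cfsg Cfsg.FusionSystem
open scoped MatrixGroups

variable {m p r : ℕ} [hp : Fact p.Prime]

/-- A translation of one block as a cycle. -/
theorem block_cycle (i : Fin m) : (tr (.ofAdd (Pi.single i 1)) : Perm (Pt m p r)).IsCycle ∧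
    ∀ y, (tr (.ofAdd (Pi.single i 1)) : Perm (Pt m p r)) y ≠ y ↔ ∃ x, y = .inl (i, x) := by
  have hmv : ∀ y, (tr (.ofAdd (Pi.single i 1)) : Perm (Pt m p r)) y ≠ y ↔ ∃ x, y = .inl (i, x) := by
    rintro (⟨j, x⟩ | k)
    · rcases eq_or_ne j i with rfl | hj
      · rw [tr_inl, Pi.single_eq_same]; simp
      · rw [tr_inl, Pi.single_eq_of_ne hj]; simp [hj]
    · rw [tr_inr]; simp
  refine ⟨⟨.inl (i, 0), (hmv _).2 ⟨0, rfl⟩, fun y hy => ?_⟩, hmv⟩
  obtain ⟨x, rfl⟩ := (hmv y).1 hy
  refine ⟨(x.val : ℤ), ?_⟩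
  rw [zpow_natCast, ← map_pow (tr (m := m) (p := p) (r := r)), ← ofAdd_nsmul, tr_inl, Pi.smul_apply,
    Pi.single_eq_same]
  simp

/-- A `p`-cycle in a `p`-group containing all block translations is a multiple of one of them. -/
theorem cycle_mem (hr : r ≤ 1) {P : Subgroup (Perm (Pt m p r))} (hP : IsPGroup p P)
    (hB : ∀ i, tr (.ofAdd (Pi.single i 1)) ∈ P) {σ : Perm (Pt m p r)} (hσP : σ ∈ P) (hσ : σ.IsCycle)
    (hc : σ.support.card = p) : ∃ i k, σ = tr (.ofAdd (Pi.single i k)) := by
  classical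
  obtain ⟨i, x, hix⟩ : ∃ i x, σ (.inl (i, x)) ≠ .inl (i, x) := by
    by_contra h
    push Not at h
    have hsub : σ.support ⊆ (Finset.univ : Finset (Fin r)).map Function.Embedding.inr := by
      rintro (⟨j, y⟩ | k) hy
      · exact absurd (h j y) (mem_support.1 hy)
      · simp
    have := Finset.card_le_card hsub
    rw [Finset.card_map, Finset.card_univ, Fintype.card_fin, hc] at this
    have := hp.out.two_le
    omega
  set c : Perm (Pt m p r) := tr (.ofAdd (Pi.single i 1)) with hcdef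
  obtain ⟨hcyc, hcm⟩ := block_cycle (r := r) (p := p) i
  set a : Pt m p r := .inl (i, x)
  have hca : c a ≠ a := (hcm a).2 ⟨x, rfl⟩
  have hcs : c.support.card = p := by
    rw [← hcyc.orderOf]
    exact orderOf_eq_prime (tr_pow _) hcyc.ne_one
  set Q := Subgroup.closure ({σ, c} : Set (Perm (Pt m p r))) with hQ
  have hQP : Q ≤ P := (Subgroup.closure_le _).2 (Set.insert_subset_iff.2 ⟨hσP, Set.singleton_subset_iff.2 (hB i)⟩)
  have hσQ : σ ∈ Q := Subgroup.subset_closure (Set.mem_insert _ _)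
  have hcQ : c ∈ Q := Subgroup.subset_closure (Set.mem_insert_of_mem _ rfl)
  have hQp : IsPGroup p Q := hP.to_le hQP
  set U := σ.support ∪ c.support with hU
  have hQout : ∀ q ∈ Q, ∀ y, y ∉ U → q y = y := by
    intro q hq
    induction hq using Subgroup.closure_induction with
    | mem q hq =>
      intro y hy
      rw [hU, Finset.mem_union, not_or] at hy
      rcases hq with rfl | rfl
      · exact notMem_support.1 hy.1
      · exact notMem_support.1 hy.2
    | one => intro y _; rfl
    | mul q q' _ _ h1 h2 => intro y hy; rw [Perm.mul_apply, h2 y hy, h1 y hy]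
    | inv q _ h => intro y hy; conv_lhs => rw [← h y hy]; rw [Perm.coe_inv, Equiv.symm_apply_apply]
  have horb : MulAction.orbit Q a = (U : Set (Pt m p r)) := by
    apply Set.Subset.antisymm
    · rintro _ ⟨q, rfl⟩
      by_contra h
      have h1 : (q : Perm (Pt m p r)) ((q : Perm (Pt m p r)) a) = (q : Perm (Pt m p r)) a := hQout _ q.2 _ h
      have h2 : (q : Perm (Pt m p r)) a = a := (q : Perm (Pt m p r)).injective h1
      apply h
      show (q : Perm (Pt m p r)) a ∈ U
      rw [h2]
      exact Finset.mem_union_left _ (mem_support.2 hix)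
    · intro y hy
      rcases Finset.mem_union.1 hy with hy | hy
      · obtain ⟨j, rfl⟩ := hσ.sameCycle hix (mem_support.1 hy)
        exact ⟨⟨σ ^ j, zpow_mem hσQ j⟩, rfl⟩
      · obtain ⟨j, rfl⟩ := hcyc.sameCycle hca (mem_support.1 hy)
        exact ⟨⟨c ^ j, zpow_mem hcQ j⟩, rfl⟩
  have hUc : U.card = p := by
    obtain ⟨n, hn⟩ := hQp.card_orbit a
    rw [horb, Nat.card_coe_set_eq, Set.ncard_coe_finset] at hn
    have h1 : U.card < p + p := by
      have h := Finset.card_union_add_card_inter σ.support c.support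
      have h2 : 0 < (σ.support ∩ c.support).card :=
        Finset.card_pos.2 ⟨a, Finset.mem_inter.2 ⟨mem_support.2 hix, mem_support.2 hca⟩⟩
      rw [hU]
      omega
    have h3 : p ≤ U.card := hc.ge.trans (Finset.card_le_card Finset.subset_union_left)
    rcases n with _ | _ | n
    · rw [pow_zero] at hn
      have := hp.out.two_le
      omega
    · simpa using hn
    · have h4 : p ^ 2 ≤ p ^ (n + 1 + 1) := Nat.pow_le_pow_right hp.out.pos (by omega)
      have h5 : p * 2 ≤ p ^ 2 := by rw [sq]; exact Nat.mul_le_mul_left p hp.out.two_le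
      omega
  have hsupp : σ.support = c.support := by
    have e1 : σ.support = U := Finset.eq_of_subset_of_card_le Finset.subset_union_left (by omega)
    have e2 : c.support = U := Finset.eq_of_subset_of_card_le Finset.subset_union_right (by omega)
    rw [e1, e2]
  have hpow : ∀ g : Perm (Pt m p r), g * c = c * g → (∀ y ∉ c.support, g y = y) → g ∈ Subgroup.zpowers c := by
    intro g hg hfix
    have hga : g a ∈ c.support := by
      rw [mem_support, ← Perm.mul_apply, ← hg, Perm.mul_apply]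
      exact fun h => hca (g.injective h)
    obtain ⟨j, hj⟩ := hcyc.sameCycle hca (mem_support.1 hga)
    refine ⟨j, Equiv.ext fun y => ?_⟩
    show (c ^ j) y = g y
    by_cases hy : y ∈ c.support
    · obtain ⟨l, rfl⟩ := hcyc.sameCycle hca (mem_support.1 hy)
      have h1 : g * c ^ l = c ^ l * g := ((show Commute g c from hg).zpow_right l).eq
      rw [← Perm.mul_apply g, h1, Perm.mul_apply, ← hj, ← Perm.mul_apply, ← Perm.mul_apply,
        (Commute.zpow_zpow_self c j l).eq]
    · rw [hfix y hy, zpow_apply_eq_self_of_apply_eq_self (notMem_support.1 hy)]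
  have hcomm : σ * c = c * σ := by
    have : Nontrivial Q :=
      (Subgroup.nontrivial_iff_ne_bot Q).2 fun h => hcyc.ne_one (Subgroup.mem_bot.1 (h ▸ hcQ))
    have := hQp.center_nontrivial
    obtain ⟨⟨⟨z, hzQ⟩, hzC⟩, hz1⟩ := exists_ne (1 : Subgroup.center Q)
    have hzz : ∀ q ∈ Q, z * q = q * z := fun q hq =>
      (congrArg Subtype.val (Subgroup.mem_center_iff.1 hzC ⟨q, hq⟩)).symm
    obtain ⟨j, hj⟩ := hpow z (hzz c hcQ) fun y hy => hQout z hzQ y (by
      rw [hU, hsupp, Finset.union_idempotent]; exact hy)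
    simp only at hj
    have hcop : IsCoprime j (p : ℤ) := by
      rw [isCoprime_comm]
      refine (Nat.prime_iff_prime_int.1 hp.out).coprime_iff_not_dvd.2 ?_
      rintro ⟨l, rfl⟩
      exact hz1 (Subtype.ext (Subtype.ext (by
        show z = 1
        rw [← hj, zpow_mul, zpow_natCast, hcdef, tr_pow, one_zpow])))
    obtain ⟨u, v, huv⟩ := hcop
    have hcz : c = z ^ u := by
      rw [← hj, ← zpow_mul]
      conv_lhs => rw [← zpow_one c, ← huv]
      rw [zpow_add, mul_comm v, zpow_mul c (p : ℤ), zpow_natCast, hcdef, tr_pow, one_zpow, mul_one, mul_comm u]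
    rw [hcz]
    exact ((show Commute z σ from hzz σ hσQ).symm.zpow_right u).eq
  obtain ⟨j, hj⟩ := hpow σ hcomm fun y hy => notMem_support.1 (hsupp ▸ hy)
  simp only at hj
  refine ⟨i, (j : ZMod p), ?_⟩
  rw [← hj, hcdef, ← map_zpow (tr (m := m) (p := p) (r := r)), ← ofAdd_zsmul]
  congr 2
  funext k
  rcases eq_or_ne k i with rfl | hk <;> simp [Pi.single_eq_of_ne, *]

/-- Elements carrying the block translations into a common `p`-group with them are monomial. -/
theorem aff_of_normalizes (hr : r ≤ 1) {P : Subgroup (Perm (Pt m p r))} (hP : IsPGroup p P)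
    (hB : ∀ i, tr (.ofAdd (Pi.single i 1)) ∈ P) {g : Perm (Pt m p r)}
    (hg : ∀ i, g * tr (.ofAdd (Pi.single i 1)) * g⁻¹ ∈ P) :
    ∃ π u b, g = aff π u b := by
  have h : ∀ i, ∃ j k, g * tr (.ofAdd (Pi.single i 1)) * g⁻¹ = tr (.ofAdd (Pi.single j k)) := by
    intro i
    refine cycle_mem hr hP hB (hg i) ((block_cycle i).1.conj) ?_
    rw [← ((block_cycle i).1.conj).orderOf,
      show g * tr (.ofAdd (Pi.single i 1)) * g⁻¹ = MulAut.conj g (tr (.ofAdd (Pi.single i 1))) from rfl,
      MulEquiv.orderOf_eq]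
    exact orderOf_eq_prime (tr_pow _) (block_cycle i).1.ne_one
  choose π k hk using h
  obtain ⟨π', u, b, hg', -, -⟩ := exists_aff hr π k fun i => mul_inv_eq_iff_eq_mul.1 (hk i)
  exact ⟨π', u, b, hg'⟩

theorem exists_three (i j : Fin m) (hm : 3 ≤ m) : ∃ l, l ≠ i ∧ l ≠ j := by
  obtain ⟨l, -, hl⟩ := Finset.exists_mem_notMem_of_card_lt_card (s := ({i, j} : Finset (Fin m)))
    (t := (Finset.univ : Finset (Fin m)))
    (by have := Finset.card_le_two (a := i) (b := j); simp only [Finset.card_univ, Fintype.card_fin]; omega)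
  simp only [Finset.mem_insert, Finset.mem_singleton, not_or] at hl
  exact ⟨l, hl.1, hl.2⟩

/-- A permutation group containing the `p`-elements and invariant under even conjugation contains the
even permutations. -/
theorem alt_le_of_pElements (hp2 : p ≠ 2) (hm : p ≤ m) {K : Subgroup (Perm (Fin m))}
    (hK : ∀ π, (∃ k, π ^ p ^ k = 1) → π ∈ K) (hc : ∀ g ∈ alternatingGroup (Fin m), ∀ π ∈ K, g * π * g⁻¹ ∈ K) :
    alternatingGroup (Fin m) ≤ K := by
  rcases eq_or_ne p 3 with rfl | h3
  · rw [← closure_three_cycles_eq_alternating, Subgroup.closure_le]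
    intro π hπ
    exact hK π ⟨1, by rw [pow_one, ← hπ.orderOf, pow_orderOf_eq_one]⟩
  have h5 : 5 ≤ p := by
    have := hp.out.two_le
    rcases Nat.lt_or_ge p 5 with h | h
    · exfalso; interval_cases p <;> first | omega | exact absurd hp.out (by norm_num)
    · exact h
  have : IsSimpleGroup (alternatingGroup (Fin m)) :=
    alternatingGroup.isSimpleGroup (by rw [Nat.card_fin]; omega)
  have hN : (K.subgroupOf (alternatingGroup (Fin m))).Normal := ⟨fun n hn g => hc g g.2 n hn⟩
  rcases hN.eq_bot_or_eq_top with h | h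
  · exfalso
    have hdvd : p ∣ Fintype.card (Perm (Fin m)) := by
      rw [Fintype.card_perm, Fintype.card_fin]; exact hp.out.dvd_factorial.2 hm
    obtain ⟨x, hx⟩ := exists_prime_orderOf_dvd_card p hdvd
    have hx1 : x ^ p = 1 := hx ▸ pow_orderOf_eq_one x
    have hxA : x ∈ alternatingGroup (Fin m) := by
      rw [mem_alternatingGroup]
      have h1 := congrArg Perm.sign hx1
      rw [map_pow, map_one] at h1
      rcases Int.units_eq_one_or (Perm.sign x) with h2 | h2
      · exact h2
      · rw [h2, (hp.out.odd_of_ne_two hp2).neg_one_pow] at h1; exact absurd h1 (by decide)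
    have h4 : (⟨x, hxA⟩ : alternatingGroup (Fin m)) ∈ (⊥ : Subgroup (alternatingGroup (Fin m))) :=
      h ▸ (show x ∈ K from hK x ⟨1, by rwa [pow_one]⟩)
    have := congrArg Subtype.val (Subgroup.mem_bot.1 h4)
    simp only [OneMemClass.coe_one] at this
    rw [this, orderOf_one] at hx
    exact hp.out.ne_one hx.symm
  · exact fun π hπ => (h ▸ Subgroup.mem_top (⟨π, hπ⟩ : alternatingGroup (Fin m)) :
      (⟨π, hπ⟩ : alternatingGroup (Fin m)) ∈ K.subgroupOf (alternatingGroup (Fin m)))

variable {H : Type*} [Group H] [Finite H]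

/-- Every automorphism of the Sylow subgroup lies in each invariant saturated subsystem over it. -/
theorem autS_le (hp2 : p ≠ 2) (hm : p ≤ m) (hr : r ≤ 1) (ι₀ : alternatingGroup (Pt m p r) ≃* H)
    (S : Sylow p H) {E : FusionSystem (S : Subgroup H)} (hEs : E.IsSaturated p)
    (hEi : E.IsInvariantIn (groupFusionSystem (S : Subgroup H))) :
    (groupFusionSystem (S : Subgroup H)).autGroup (S : Subgroup H) ≤ E.autGroup (S : Subgroup H) := by
  classical
  have h3 : 3 ≤ m := by
    have := hp.out.two_le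
    omega
  have hF := groupFusionSystem_saturated S
  have even_of_pow : ∀ {g : Perm (Pt m p r)} {k : ℕ}, g ^ p ^ k = 1 → g ∈ alternatingGroup (Pt m p r) :=
    fun h => mem_alternatingGroup.2 (sign_of_pow hp2 h)
  have tr_pow' : ∀ b, (tr b : Perm (Pt m p r)) ^ p ^ 1 = 1 := fun b => by rw [pow_one]; exact tr_pow b
  -- the translations and a block permutation
  set σ : Perm (Pt m p r) := via hm (transl (.ofAdd (1, 0))) with hσdef
  have hσp : σ ^ p ^ 1 = 1 := by
    rw [pow_one, hσdef, ← map_pow, ← map_pow, ← ofAdd_nsmul]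
    simp [show ((0 : ZMod p), (0 : ZMod p)) = 0 from rfl]
  have hσtr : ∀ b : Fin m → ZMod p, ∃ b', σ * tr (.ofAdd b) * σ⁻¹ = (tr (.ofAdd b') : Perm (Pt m p r)) := by
    intro b
    refine ⟨fun i => b (((Equiv.addRight (1 : ZMod p)).viaEmbedding (blockEmb hm)).symm i), ?_⟩
    have hσa : σ = aff ((Equiv.addRight (1 : ZMod p)).viaEmbedding (blockEmb hm)) 1 0 := by
      refine Equiv.ext fun y => ?_
      rcases pt_cases hm y with ⟨⟨s, x⟩, rfl⟩ | ⟨i, hi, x, rfl⟩ | ⟨k, rfl⟩
      · rw [hσdef, via_plane, transl_apply]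
        show _ = aff _ 1 0 (.inl (blockEmb hm s, x))
        rw [aff_inl, viaEmbedding_apply]
        simp [plane]
        rfl
      · rw [hσdef, via_out hm _ hi, aff_inl, viaEmbedding_apply_of_notMem _ _ _ hi]; simp
      · rw [hσdef, via_inr, aff_inr]
    rw [hσa, aff_conj_tr, mul_inv_cancel_right]
    simp
  set B0 : Subgroup (Perm (Pt m p r)) := (tr (m := m) (p := p) (r := r)).range with hB0
  set P1 : Subgroup (Perm (Pt m p r)) := Subgroup.zpowers σ ⊔ B0 with hP1
  have htrmem : ∀ b, tr (.ofAdd b) ∈ B0 := fun b => ⟨_, rfl⟩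
  have hP1p : IsPGroup p P1 := by
    refine IsPGroup.to_sup_of_normal_right' ?_ (fun g => ?_) ?_
    · obtain ⟨j, -, hj⟩ := (Nat.dvd_prime_pow hp.out).1 (orderOf_dvd_of_pow_eq_one hσp)
      exact IsPGroup.of_card (n := j) ((Nat.card_zpowers σ).trans hj)
    · obtain ⟨g, b, rfl⟩ := g
      exact ⟨1, Subtype.ext (tr_pow' b)⟩
    · refine Subgroup.zpowers_le.2 (Subgroup.mem_normalizer_fintype ?_)
      rintro _ ⟨b, rfl⟩
      obtain ⟨b', hb'⟩ := hσtr b.toAdd
      rw [show (tr b : Perm (Pt m p r)) = tr (.ofAdd b.toAdd) from rfl, hb']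
      exact htrmem b'
  obtain ⟨Q₁, hQ₁⟩ := ((hP1p.comap_subtype (K := alternatingGroup (Pt m p r))).map ι₀.toMonoidHom).exists_le_sylow
  obtain ⟨g₁, hg₁⟩ := MulAction.exists_smul_eq H Q₁ S
  let ι : alternatingGroup (Pt m p r) ≃* H := ι₀.trans (MulAut.conj g₁)
  have hιP1 : img' ι P1 ≤ (S : Subgroup H) := by
    intro y hy
    obtain ⟨x, rfl⟩ := ι.surjective y
    rw [← hg₁, Sylow.coe_subgroup_smul]
    exact ⟨ι₀ x, hQ₁ ⟨x, (mem_img' ι).1 hy, rfl⟩, rfl⟩
  have hB0P1 : B0 ≤ P1 := le_sup_right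
  have hBS : img' ι B0 ≤ (S : Subgroup H) := (img'_mono ι hB0P1).trans hιP1
  -- elements normalizing the Sylow subgroup are monomial
  have haff : ∀ y ∈ Subgroup.normalizer ((S : Subgroup H) : Set H), ∃ π u b,
      ((ι.symm y : alternatingGroup (Pt m p r)) : Perm (Pt m p r)) = aff π u b := by
    intro y hy
    set g := ι.symm y
    have hyg : ι g = y := ι.apply_symm_apply y
    set P := ((S : Subgroup H).comap ι.toMonoidHom).map (alternatingGroup (Pt m p r)).subtype with hP
    have hPp : IsPGroup p P := (S.2.comap_of_injective ι.toMonoidHom ι.injective).map _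
    have hBP : ∀ i, tr (.ofAdd (Pi.single i 1)) ∈ P := fun i =>
      ⟨⟨_, even_of_pow (tr_pow' _)⟩, hBS ((mem_img' ι).2 (htrmem _)), rfl⟩
    refine aff_of_normalizes hr hPp hBP fun i => ?_
    refine ⟨g * ⟨_, even_of_pow (tr_pow' (.ofAdd (Pi.single i 1)))⟩ * g⁻¹, ?_, rfl⟩
    show ι _ ∈ (S : Subgroup H)
    rw [map_mul, map_mul, map_inv, hyg]
    exact conj_mem_of_mem_normalizer hy (hBS ((mem_img' ι).2 (htrmem _)))
  have haffN : ∀ (π : Perm (Fin m)) (u : Fin m → (ZMod p)ˣ) (b : Fin m → ZMod p), ∀ x ∈ B0,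
      (aff π u b : Perm (Pt m p r)) * x * (aff π u b)⁻¹ ∈ B0 := by
    rintro π u b _ ⟨v, rfl⟩
    rw [show (tr v : Perm (Pt m p r)) = tr (.ofAdd v.toAdd) from rfl, aff_conj_tr, mul_inv_cancel_right]
    exact htrmem _
  set Good := goodSub ι E B0 with hGood
  have hpow := fun {g : Perm (Pt m p r)} {k : ℕ} (hk : g ^ p ^ k = 1) =>
    mem_goodSub_of_pow ι E B0 S.2 hF hEi hBS (even_of_pow hk) hk
  have hconj := fun {g a : Perm (Pt m p r)} => conj_mem_goodSub (g := g) (a := a) ι E B0 S.2 hF hEi hBS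
  -- translations
  have htr : ∀ b, tr b ∈ Good := fun b => hpow (tr_pow' b) (by
    rintro x ⟨v, rfl⟩
    rw [← map_mul, ← map_inv, ← map_mul]
    exact ⟨_, rfl⟩)
  -- block permutations
  have hlift : ∀ π ∈ alternatingGroup (Fin m), lift π ∈ Good := by
    refine fun π hπ => alt_le_of_pElements hp2 hm (K := Good.comap lift) ?_ ?_ hπ
    · rintro π ⟨k, hk⟩
      exact hpow (show (lift π : Perm (Pt m p r)) ^ p ^ k = 1 by rw [← map_pow, hk, map_one]) (haffN π 1 0)
    · intro g hg π hπ
      show lift (g * π * g⁻¹) ∈ Good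
      rw [map_mul, map_mul, map_inv]
      exact hconj (mem_alternatingGroup.2 ((sign_lift hp2 g).trans (mem_alternatingGroup.1 hg))) (haffN g 1 0) hπ
  -- torus
  have hpair : ∀ (i j : Fin m) (v : (ZMod p)ˣ), i ≠ j →
      tor (Pi.mulSingle i v * (Pi.mulSingle j v)⁻¹) ∈ Good := by
    intro i j v hij
    obtain ⟨l, hli, hlj⟩ := exists_three i j h3
    set π := Equiv.swap i j * Equiv.swap j l with hπ
    have hπA : π ∈ alternatingGroup (Fin m) := by
      rw [mem_alternatingGroup, hπ, map_mul, sign_swap hij, sign_swap hlj.symm]; rfl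
    set t : Fin m → (ZMod p)ˣ :=
      Pi.mulSingle i v * Pi.mulSingle i v * Pi.mulSingle j v * Pi.mulSingle l v with ht
    have htA : (tor t : Perm (Pt m p r)) ∈ alternatingGroup (Pt m p r) := by
      rw [mem_alternatingGroup, sign_tor i t]
      have hprod : ∏ k, t k = (v * v) * (v * v) := by
        simp only [ht, Pi.mul_apply, Finset.prod_mul_distrib]
        simp [Pi.mulSingle_apply]
        ac_rfl
      rw [hprod, map_mul, Int.units_mul_self]
    have h1 := mul_mem (hlift π hπA) (hconj htA (haffN 1 t 0) (inv_mem (hlift π hπA)))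
    have e : (lift π : Perm (Pt m p r)) * (tor t * (lift π)⁻¹ * (tor t)⁻¹) =
        tor (fun k => t (π.symm k) * (t k)⁻¹) := by
      rw [show (lift π : Perm (Pt m p r)) * (tor t * (lift π)⁻¹ * (tor t)⁻¹) =
        lift π * tor t * (lift π)⁻¹ * (tor t)⁻¹ by group, lift_tor, ← map_inv, ← map_mul]
      rfl
    rw [e] at h1
    have hval : (fun k => t (π.symm k) * (t k)⁻¹) = (Pi.mulSingle i v * (Pi.mulSingle j v)⁻¹)⁻¹ := by
      have hπi : π.symm i = l := by
        rw [Equiv.symm_apply_eq, hπ, Perm.mul_apply, Equiv.swap_apply_right, Equiv.swap_apply_right]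
      have hπj : π.symm j = i := by
        rw [Equiv.symm_apply_eq, hπ, Perm.mul_apply, Equiv.swap_apply_of_ne_of_ne hij (Ne.symm hli),
          Equiv.swap_apply_left]
      have hπl : π.symm l = j := by
        rw [Equiv.symm_apply_eq, hπ, Perm.mul_apply, Equiv.swap_apply_left, Equiv.swap_apply_of_ne_of_ne hli hlj]
      have ti : t i = v * v := by simp [ht, Pi.mulSingle_apply, hij, Ne.symm hli]
      have tj : t j = v := by simp [ht, Pi.mulSingle_apply, hij.symm, Ne.symm hlj]
      have tl : t l = v := by simp [ht, Pi.mulSingle_apply, hli, hlj]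
      funext k
      rcases eq_or_ne k i with rfl | hki
      · rw [hπi, ti, tl]; simp [Pi.mulSingle_apply, hij]
      rcases eq_or_ne k j with rfl | hkj
      · rw [hπj, ti, tj]; simp [Pi.mulSingle_apply, hij.symm]
      rcases eq_or_ne k l with rfl | hkl
      · rw [hπl, tj, tl]; simp [Pi.mulSingle_apply, hki, hkj]
      · have hπk : π.symm k = k := by
          rw [Equiv.symm_apply_eq, hπ, Perm.mul_apply, Equiv.swap_apply_of_ne_of_ne hkj hkl,
            Equiv.swap_apply_of_ne_of_ne hki hkj]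
        rw [hπk]; simp [Pi.mulSingle_apply, hki, hkj]
    rw [hval, map_inv, inv_mem_iff] at h1
    exact h1
  have hpure : ∀ π u b, (aff π u b : Perm (Pt m p r)) ∈ alternatingGroup (Pt m p r) → ∏ i, u i = 1 →
      aff π u b ∈ Good := by
    intro π u b hA hu
    have i₀ : Fin m := ⟨0, by omega⟩
    rw [mem_alternatingGroup, sign_aff hp2 i₀, hu, map_one, mul_one] at hA
    have htor : tor u ∈ Good := by
      have e : u = ∏ k, (Pi.mulSingle k (u k) * (Pi.mulSingle i₀ (u k))⁻¹) := by
        have e2 : ∏ x, Pi.mulSingle i₀ (u x) = (Pi.mulSingle i₀ (∏ x, u x) : Fin m → (ZMod p)ˣ) :=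
          (map_prod (MonoidHom.mulSingle (fun _ : Fin m => (ZMod p)ˣ) i₀) u Finset.univ).symm
        rw [Finset.prod_mul_distrib, Finset.univ_prod_mulSingle, Finset.prod_inv_distrib, e2, hu,
          Pi.mulSingle_one, inv_one, mul_one]
      suffices hc : u ∈ Good.comap tor from Subgroup.mem_comap.1 hc
      rw [e]
      refine Subgroup.prod_mem _ fun k _ => Subgroup.mem_comap.2 ?_
      rcases eq_or_ne k i₀ with rfl | hk
      · rw [mul_inv_cancel, map_one]; exact one_mem _
      · exact hpair k i₀ _ hk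
    rw [aff_eq]
    exact mul_mem (mul_mem (hlift π (mem_alternatingGroup.2 hA)) (htr _)) htor
  -- the special linear group on the plane
  let R0 : Subgroup (Perm (Pt m p r)) :=
    { carrier := {g | ∃ (v : ZMod p × ZMod p) (b : Fin m → ZMod p), (∀ s, b (blockEmb hm s) = 0) ∧
        g = via hm (transl (.ofAdd v)) * tr (.ofAdd b)}
      one_mem' := ⟨0, 0, fun s => rfl, by simp⟩
      mul_mem' := by
        rintro _ _ ⟨v, b, hb, rfl⟩ ⟨v', b', hb', rfl⟩
        refine ⟨v + v', b + b', fun s => by simp [hb, hb'], ?_⟩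
        rw [mul_assoc, ← mul_assoc (tr _), ← via_comm_tr hm _ hb, ofAdd_add, ofAdd_add, map_mul, map_mul, map_mul]
        simp only [mul_assoc]
      inv_mem' := by
        rintro _ ⟨v, b, hb, rfl⟩
        refine ⟨-v, -b, fun s => by simp [hb], ?_⟩
        rw [mul_inv_rev, ofAdd_neg, ofAdd_neg, map_inv, map_inv, map_inv,
          (show Commute (via hm (transl (Multiplicative.ofAdd v))) (tr (Multiplicative.ofAdd b) : Perm (Pt m p r)) from
            via_comm_tr hm _ hb).inv_inv.eq] }
  have hR0P1 : R0 ≤ P1 := by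
    rintro _ ⟨⟨s, y⟩, b, hb, rfl⟩
    refine mul_mem ?_ (Subgroup.mem_sup_right (htrmem b))
    have e : (Multiplicative.ofAdd (s, y) : Multiplicative (ZMod p × ZMod p)) =
        Multiplicative.ofAdd ((0 : ZMod p), y) * Multiplicative.ofAdd ((1 : ZMod p), (0 : ZMod p)) ^ s.val := by
      rw [← ofAdd_nsmul, ← ofAdd_add]
      congr 1
      ext <;> simp
    rw [e, map_mul, map_mul, map_pow, map_pow]
    refine mul_mem (Subgroup.mem_sup_right ?_) (pow_mem (Subgroup.mem_sup_left (Subgroup.mem_zpowers σ)) _)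
    refine ⟨.ofAdd fun i => if i ∈ Finset.univ.image (blockEmb hm) then y else 0, ?_⟩
    refine Equiv.ext fun z => ?_
    rcases pt_cases hm z with ⟨⟨s', x⟩, rfl⟩ | ⟨i, hi, x, rfl⟩ | ⟨k, rfl⟩
    · rw [via_plane, transl_apply]
      show tr _ (.inl (blockEmb hm s', x)) = _
      rw [tr_inl, if_pos (by simp)]
      simp [plane]
      rfl
    · rw [via_out hm _ hi, tr_inl, if_neg (by simpa using hi), add_zero]
    · rw [via_inr, tr_inr]
  have hlinN : ∀ M : SL(2, ZMod p), ∀ x ∈ R0, via hm (lin M) * x * (via hm (lin M))⁻¹ ∈ R0 := by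
    rintro M _ ⟨v, b, hb, rfl⟩
    refine ⟨linFun M v, b, hb, ?_⟩
    rw [← mul_assoc, ← map_mul, lin_transl, map_mul, mul_assoc (via hm _), via_comm_tr hm _ hb]
    simp only [mul_assoc, mul_inv_cancel, mul_one]
  have hR0S : img' ι R0 ≤ (S : Subgroup H) := (img'_mono ι hR0P1).trans hιP1
  set Good' := goodSub ι E R0 with hGood'
  have htransv : ∀ (a b : Fin 2) (hab : a ≠ b) (c : ZMod p),
      via hm (lin (Matrix.SpecialLinearGroup.transvection hab c)) ∈ Good' := by
    intro a b hab c
    have hk : (via hm (lin (Matrix.SpecialLinearGroup.transvection hab c)) : Perm (Pt m p r)) ^ p ^ 1 = 1 := by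
      rw [pow_one, ← map_pow, ← map_pow, Cfsg.Agent.Lib.Fusion.SLUpper.x_pow p a b hab c, map_one, map_one]
    exact mem_goodSub_of_pow ι E R0 S.2 hF hEi hR0S (even_of_pow hk) hk (hlinN _)
  have hcentric : (groupFusionSystem (S : Subgroup H)).IsCentric (img' ι R0) := by
    refine isCentric_of_centralizer_le hR0S fun y hy => ?_
    obtain ⟨g, rfl⟩ := ι.surjective y
    refine (mem_img' ι).2 ?_
    have hcomm : ∀ x ∈ R0, (g : Perm (Pt m p r)) * x = x * g := by
      intro x hx
      have hxA : x ∈ alternatingGroup (Pt m p r) := by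
        obtain ⟨⟨x', hx'⟩, hk⟩ : ∃ x' : P1, (x' : Perm (Pt m p r)) = x := ⟨⟨x, hR0P1 hx⟩, rfl⟩
        obtain ⟨k, hk'⟩ := hP1p ⟨x', hx'⟩
        subst hk
        exact even_of_pow (congrArg Subtype.val hk')
      have h1 := hy (ι ⟨x, hxA⟩) ((mem_img' ι).2 hx)
      rw [← map_mul, ← map_mul] at h1
      exact (congrArg Subtype.val (ι.injective h1)).symm
    have hout : ∀ i, i ∉ Set.range (blockEmb hm) → tr (.ofAdd (Pi.single i 1)) ∈ R0 := fun i hi =>
      ⟨0, Pi.single i 1, fun s => Pi.single_eq_of_ne (fun h => hi ⟨s, h⟩) _, by simp⟩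
    have hpl : ∀ v, (via hm (transl (.ofAdd v)) : Perm (Pt m p r)) ∈ R0 := fun v => ⟨v, 0, fun s => rfl, by simp⟩
    have hblock : ∀ i, i ∉ Set.range (blockEmb hm) → ∀ x,
        ∃ x', (g : Perm (Pt m p r)) (.inl (i, x)) = .inl (i, x') := by
      intro i hi x
      refine ((block_cycle (r := r) (p := p) i).2 _).1 fun h =>
        ((block_cycle (r := r) (p := p) i).2 (.inl (i, x))).2 ⟨x, rfl⟩ ?_
      refine (g : Perm (Pt m p r)).injective ?_
      rw [← Perm.mul_apply, hcomm _ (hout i hi), Perm.mul_apply, h]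
    have hplane : ∀ z, ∃ z', (g : Perm (Pt m p r)) (plane hm z) = plane hm z' := by
      intro z
      rcases pt_cases hm ((g : Perm (Pt m p r)) (plane hm z)) with h | ⟨i, hi, x, h⟩ | ⟨k, h⟩
      · exact h
      all_goals
        exfalso
        have hne : (via hm (transl (.ofAdd ((1 : ZMod p), (0 : ZMod p)))) : Perm (Pt m p r)) (plane hm z) ≠ plane hm z := by
          rw [via_plane, transl_apply]
          intro e
          simpa [Prod.ext_iff] using (plane hm).injective e
        refine hne ((g : Perm (Pt m p r)).injective ?_)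
        rw [← Perm.mul_apply, hcomm _ (hpl _), Perm.mul_apply, h]
      · rw [via_out hm _ hi]
      · rw [via_inr]
    obtain ⟨v₀, hv₀⟩ := hplane 0
    have hgp : ∀ z, (g : Perm (Pt m p r)) (plane hm z) = plane hm (z + v₀) := by
      intro z
      have e : (g : Perm (Pt m p r)) ((via hm (transl (.ofAdd z)) : Perm (Pt m p r)) (plane hm 0)) =
          (via hm (transl (.ofAdd z)) : Perm (Pt m p r)) ((g : Perm (Pt m p r)) (plane hm 0)) := by
        rw [← Perm.mul_apply, hcomm _ (hpl z), Perm.mul_apply]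
      rw [via_plane, hv₀, via_plane, transl_apply, transl_apply, zero_add, add_comm v₀] at e
      exact e
    choose bb hbb using fun i (hi : i ∉ Set.range (blockEmb hm)) => hblock i hi 0
    refine ⟨v₀, fun i => if h : i ∈ Set.range (blockEmb hm) then 0 else bb i h, fun s => dif_pos ⟨s, rfl⟩, ?_⟩
    refine Equiv.ext fun y => ?_
    rcases pt_cases hm y with ⟨z, rfl⟩ | ⟨i, hi, x, rfl⟩ | ⟨k, rfl⟩
    · rw [hgp, Perm.mul_apply]
      have : (tr (.ofAdd fun i => if h : i ∈ Set.range (blockEmb hm) then 0 else bb i h) : Perm (Pt m p r))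
          (plane hm z) = plane hm z := by
        show tr _ (.inl (blockEmb hm z.1, z.2)) = _
        rw [tr_inl, dif_pos ⟨z.1, rfl⟩, add_zero]; rfl
      rw [this, via_plane, transl_apply]
    · have h1 : (g : Perm (Pt m p r)) * tr (.ofAdd (Pi.single i 1)) ^ x.val =
          tr (.ofAdd (Pi.single i 1)) ^ x.val * (g : Perm (Pt m p r)) :=
        ((show Commute (g : Perm (Pt m p r)) _ from hcomm _ (hout i hi)).pow_right _).eq
      rw [← map_pow (tr (m := m) (p := p) (r := r)), ← ofAdd_nsmul] at h1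
      have h2 := congrArg (fun e : Perm (Pt m p r) => e (.inl (i, 0))) h1
      have hs : (x.val • (Pi.single i 1 : Fin m → ZMod p)) i = x := by simp
      simp only [Perm.mul_apply, tr_inl, toAdd_ofAdd, hbb i hi, hs, zero_add] at h2
      rw [h2, Perm.mul_apply, tr_inl, dif_neg hi, via_out hm _ hi, add_comm]
    · rw [Perm.mul_apply, tr_inr, via_inr]
      rcases hg : (g : Perm (Pt m p r)) (.inr k) with ⟨j, y⟩ | k'
      · exfalso
        by_cases hj : j ∈ Set.range (blockEmb hm)
        · obtain ⟨s, rfl⟩ := hj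
          have e := hgp ((s, y) - v₀)
          rw [sub_add_cancel] at e
          exact Sum.inl_ne_inr ((g : Perm (Pt m p r)).injective (e.trans hg.symm))
        · have h1 : (g : Perm (Pt m p r)) * tr (.ofAdd (Pi.single j 1)) = tr (.ofAdd (Pi.single j 1)) * (g : Perm (Pt m p r)) :=
            hcomm _ (hout j hj)
          have h2 := congrArg (fun e : Perm (Pt m p r) => e (.inr k)) h1
          simp [tr_inr, hg, tr_inl] at h2
      · congr 1
        exact Fin.ext (by have := k.isLt; have := k'.isLt; omega)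
  have hP1N : ∀ (π : Perm (Fin m)) (u : Fin m → (ZMod p)ˣ) (M : SL(2, ZMod p)),
      via hm (lin M) = (aff π u 0 : Perm (Pt m p r)) → linFun M (1, 0) ∈ {z : ZMod p × ZMod p | z.2 = 0} →
      ∀ x ∈ P1, via hm (lin M) * x * (via hm (lin M))⁻¹ ∈ P1 := by
    intro π u M hM h0
    suffices h : P1 ≤ P1.comap (MulAut.conj (via hm (lin M))).toMonoidHom from fun x hx => h hx
    refine sup_le (Subgroup.zpowers_le.2 (hR0P1 ?_)) ?_
    · exact hlinN M σ ⟨(1, 0), 0, fun s => rfl, by simp [hσdef]⟩
    · intro x hx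
      show via hm (lin M) * x * (via hm (lin M))⁻¹ ∈ P1
      rw [hM]
      exact hB0P1 (haffN π u 0 x hx)
  have hdiag : ∀ a : (ZMod p)ˣ, ∃ π u, (aff π u 0 : Perm (Pt m p r)) ∈ Good ∧ ∏ i, u i = a := by
    intro a
    obtain ⟨π, u, hu, hM⟩ := via_diag (r := r) hm a
    set M := Matrix.SpecialLinearGroup.diag2n (F := ZMod p) (ι := Fin 2) zero_ne_one ((a⁻¹ : (ZMod p)ˣ) : ZMod p)
      (Units.ne_zero _)
    have h' : via hm (lin M) ∈ Good' := by
      simp only [M, Cfsg.Agent.Lib.Classical.diag2n_decompose, map_mul]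
      exact mul_mem (mul_mem (mul_mem (mul_mem (mul_mem (htransv _ _ _ _) (htransv _ _ _ _)) (htransv _ _ _ _))
        (htransv _ _ _ _)) (htransv _ _ _ _)) (htransv _ _ _ _)
    obtain ⟨hA, hN, hmem⟩ := h'
    have hNP : ι ⟨_, hA⟩ ∈ Subgroup.normalizer (img' ι P1 : Set H) := normal_img' ι hA (hP1N π u M hM (by
      show (linFun M (1, 0)).2 = 0
      rw [linFun_diag]; exact mul_zero _))
    have h1 := conjAut_mem_climb S.2 hF hEs hEi.1 hιP1 hNP (img'_mono ι hR0P1) hcentric hN hmem
    have hNB : ι ⟨_, hA⟩ ∈ Subgroup.normalizer (img' ι B0 : Set H) := normal_img' ι hA (by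
      intro x hx
      rw [hM]
      exact haffN π u 0 x hx)
    refine ⟨π, u, ?_, hu⟩
    rw [← hM]
    exact ⟨hA, hNB, conjAut_mem_restrict (img'_mono ι hB0P1) hιP1 hNP hNB h1⟩
  have hBc : (groupFusionSystem (S : Subgroup H)).IsCentric (img' ι B0) := by
    refine isCentric_of_centralizer_le hBS fun y hy => ?_
    obtain ⟨g, rfl⟩ := ι.surjective y
    refine (mem_img' ι).2 ?_
    obtain ⟨b, hb⟩ := eq_tr_of_comm hr (g := (g : Perm (Pt m p r))) fun i => by
      have h1 := hy (ι ⟨_, even_of_pow (tr_pow' (.ofAdd (Pi.single i 1)))⟩) ((mem_img' ι).2 (htrmem _))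
      rw [← map_mul, ← map_mul] at h1
      exact (congrArg Subtype.val (ι.injective h1)).symm
    rw [hb]
    exact htrmem b
  intro α hα
  obtain ⟨-, -, g, hg⟩ := (mem_autGroup le_rfl).1 hα
  have hgS := normalizes_of_induced hg
  obtain ⟨π, u, b, he⟩ := haff g hgS
  obtain ⟨π', u', hh, hu'⟩ := hdiag (∏ i, u i)⁻¹
  have hmem : ((ι.symm g : alternatingGroup (Pt m p r)) : Perm (Pt m p r)) ∈ Good := by
    have hA : (aff π u b : Perm (Pt m p r)) ∈ alternatingGroup (Pt m p r) := he ▸ (ι.symm g).2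
    have h1 : (aff π u b : Perm (Pt m p r)) * aff π' u' 0 ∈ Good := by
      have hA' := mul_mem hA hh.1
      rw [aff_mul] at hA' ⊢
      refine hpure _ _ _ hA' ?_
      rw [Finset.prod_mul_distrib, Equiv.prod_comp π' u, hu', mul_inv_cancel]
    have := mul_mem h1 (inv_mem hh)
    rwa [mul_inv_cancel_right, ← he] at this
  obtain ⟨hA, hN, hE⟩ := hmem
  have e : ι ⟨_, hA⟩ = g := ι.apply_symm_apply g
  have hN' : g ∈ Subgroup.normalizer (img' ι B0 : Set H) := e ▸ hN
  have hE' : conjAut (img' ι B0) hN' ∈ E.autGroup (img' ι B0) := by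
    convert hE using 1
    ext x
    simp [e]
  rw [show α = conjAut (S : Subgroup H) hgS by ext x; rw [conjAut_apply]; exact hg x]
  exact conjAut_mem_of_centric S.2 hF hEs hEi.1 hgS hBc hN' hE'

end Cfsg.Agent.Lib.Fusion.AltBlocks
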