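import Cfsg.Agent.Lib.Fusion.GroupSimple
import Cfsg.Agent.Lib.Fusion.ResidualInvariant

/-!
Transporting automorphisms of an invariant subsystem of a group fusion system up a chain of
normalizers.
-/

set_option autoImplicit false

namespace Cfsg.Agent.Lib.Fusion

open Cfsg Cfsg.FusionSystem

/-- An invariant subsystem over `S` contains the `p`-elements of every automorphism group. -/
theorem pElement_mem_autGroup' {Ω : Type*} [Group Ω] {S : Subgroup Ω} {F E : FusionSystem S} {p : ℕ}
    [Finite S] [Fact p.Prime] (hS : IsPGroup p S) (hF : F.IsSaturated p) (h : E.IsInvariantIn F)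
    {R : Subgroup Ω} (hR : R ≤ S) {α : MulAut R} (hα : α ∈ F.autGroup R)
    (hp : ∃ k : ℕ, α ^ p ^ k = 1) : α ∈ E.autGroup R := by
  obtain ⟨R', hconj, hFN⟩ := exists_fullyNormalized (F := F) hR
  obtain ⟨e, he⟩ := isConj_iff_iso.1 hconj
  obtain ⟨k, hk⟩ := hp
  have hβ : MulAut.congr e α ∈ F.autGroup R' := by
    rw [← he.autGroup_map]
    exact ⟨α, hα, rfl⟩
  have h1 := pElement_mem_autGroup hS hF h hFN hβ ⟨k, by rw [← map_pow, hk, map_one]⟩
  have h2 := Residual.congr_mem (IsInvariantIn.strongInvariant h) hFN.1 hR he.symm h1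
  convert h2 using 1
  ext x
  simp [MulAut.congr]

/-- An element inducing a map of `E` on a centric subgroup `R` does so on every `p`-subgroup of `S`
above `R` that it normalizes. -/
theorem conjAut_mem_climb {G : Type*} [Group G] [Finite G] {p : ℕ} [Fact p.Prime]
    {S : Subgroup G} (hS : IsPGroup p S) (hF : (groupFusionSystem S).IsSaturated p)
    {E : FusionSystem S} (hE : E.IsSaturated p) (hsub : E.IsSubsystemOf (groupFusionSystem S))
    {P : Subgroup G} (hPS : P ≤ S) {g : G} (hgP : g ∈ Subgroup.normalizer (P : Set G)) :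
    ∀ {R : Subgroup G}, R ≤ P → (groupFusionSystem S).IsCentric R →
      ∀ hgR : g ∈ Subgroup.normalizer (R : Set G), conjAut R hgR ∈ E.autGroup R →
        conjAut P hgP ∈ E.autGroup P := by
  intro R
  induction hn : Nat.card P - Nat.card R using Nat.strong_induction_on generalizing R with
  | _ n ih =>
    intro hRP hR hgR hc
    rcases hRP.eq_or_lt with rfl | hlt
    · exact hc
    set N := normalizerIn P R
    have hgN : g ∈ Subgroup.normalizer (N : Set G) := mem_normalizer_of_conj_mem fun x hx =>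
      ⟨conj_mem_of_mem_normalizer hgP hx.1, Subgroup.mul_mem _ (Subgroup.mul_mem _ hgR hx.2) (Subgroup.inv_mem _ hgR)⟩
    have hNS : N ≤ S := (normalizerIn_le P R).trans hPS
    have hlt' : R < N := lt_normalizer_inf (hS.to_le hPS) hlt
    obtain ⟨ψ, hψ, hψe⟩ := receptive_extend
      (fullyCentralized_receptive hS hE (fullyCentralized_of_isCentric hsub hR)) ((mem_autGroup hR.1).1 hc)
    have hNe : N ≤ extender S R (R.subtype.comp (conjAut R hgR).toMonoidHom) := fun s hs => by
      refine mem_extender.2 ⟨hPS hs.1, hs.2, g * s * g⁻¹, hPS (conj_mem_of_mem_normalizer hgP hs.1), fun x hx => ?_⟩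
      show g * (s * (x : G) * s⁻¹) * g⁻¹ = g * s * g⁻¹ * (g * x * g⁻¹) * (g * s * g⁻¹)⁻¹
      group
    have hconjF : conjHom N g ∈ (groupFusionSystem S).Hom N :=
      ⟨hNS, fun x => hPS (conj_mem_of_mem_normalizer hgP x.2.1), g, fun x => rfl⟩
    obtain ⟨z, hzR, hzC, hze⟩ := centric_agree hS hF hlt'.le hR (hsub _ (restrict_mem hNe hψ)) hconjF fun x hx => by
      show ψ ⟨x, _⟩ = conjHom N g x
      rw [hψe ⟨(x : G), hx⟩ (hNe x.2)]
      rfl
    have hmem : N.subtype.comp (conjAut N hgN).toMonoidHom ∈ E.Hom N :=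
      mem_of_comp (E.conj_mem hNS (hNS z.2)) (restrict_mem hNe hψ)
        (fun x => N.mul_mem (N.mul_mem z.2 x.2) (N.inv_mem z.2)) fun x => hze x
    refine ih (Nat.card P - Nat.card N) ?_ rfl (normalizerIn_le P R)
      (isCentric_of_le hR hlt'.le hNS) hgN ((mem_autGroup hNS).2 hmem)
    have h1 : Nat.card R < Nat.card N := lt_of_le_of_ne (Subgroup.card_le_of_le hlt'.le)
      fun h => hlt'.ne (eq_of_le_card hlt'.le h.ge)
    have h2 : Nat.card N ≤ Nat.card P := Subgroup.card_le_of_le (normalizerIn_le P R)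
    omega

/-- Restriction to a smaller subgroup normalized by the element. -/
theorem conjAut_mem_restrict {G : Type*} [Group G] {S : Subgroup G} {E : FusionSystem S} {P B : Subgroup G}
    (hBP : B ≤ P) (hPS : P ≤ S) {g : G} (hgP : g ∈ Subgroup.normalizer (P : Set G))
    (hgB : g ∈ Subgroup.normalizer (B : Set G)) (h : conjAut P hgP ∈ E.autGroup P) :
    conjAut B hgB ∈ E.autGroup B := by
  refine (mem_autGroup (hBP.trans hPS)).2 ?_
  show B.subtype.comp (conjAut B hgB).toMonoidHom ∈ E.Hom B
  convert restrict_mem hBP (isIso_iff.1 ((mem_autGroup hPS).1 h)) using 1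
  ext x
  simp

end Cfsg.Agent.Lib.Fusion
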