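import Cfsg.Agent.Lib.Fusion.MathieuCert
import Cfsg.Agent.Lib.Golay.Simple

/-! Certificate that the 2-fusion system of M11 is simple. -/

set_option autoImplicit false

namespace Cfsg.Agent.Lib.Fusion.Mathieu

open Cfsg Cfsg.Agent.Lib.Golay

/-- Generators of a Sylow 2-subgroup of M11 above its Frattini subgroup. -/
def m11A : List ℕ := [230706904993005222193979105068265728, 429891312267296919914755612024611872]

/-- Generators of the Frattini subgroup. -/
def m11B : List ℕ := [596446498654545280824712865943686208, 818015854031940836654194692781548640]

/-- The central involution. -/
def m11Z : ℕ := 818015854031940836654194692781548640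

/-- Square words. -/
def m11W : List (List ℕ) := [[317515390301167144372593149461738752], [596446498654545280824712865943686208]]

/-- Coset invariants. -/
def m11K : List ℕ := [keySet id [2704, 5608, 15608], keySet id [5604], keySet id [2704], keySet id [1352]]

/-- Derivation. -/
def m11Steps : List Step := [.conj 934095404336675272960236083240911424 429891312267296919914755612024611872 0, .conj 319959650499534135224324587090165792 984246521836818460956491656630404160 0, .mul 2 1, .conj 981974904420581580909792917912334400 230706904993005222193979105068265728 3]

theorem m11_cert : cert (inStab [d0] 1) m11A m11B m11Z m11W m11K m11Steps = true := by decide +kernel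

theorem m11_simple (S : Sylow 2 gM11) :
    (groupFusionSystem (S : Subgroup gM11)).IsSimple 2 :=
  simple_of_cert (fun p hp => ⟨(inStab_spec hp).2, (inStab_spec hp).1⟩)
    m11_cert 495 (by rw [gM11_card]; rfl) (by decide) (by decide) S

end Cfsg.Agent.Lib.Fusion.Mathieu
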