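import Cfsg.Agent.Lib.Fusion.MathieuCert
import Cfsg.Agent.Lib.Golay.Simple

/-! Certificate that the 2-fusion system of M12 is simple. -/

set_option autoImplicit false

namespace Cfsg.Agent.Lib.Fusion.Mathieu

open Cfsg Cfsg.Agent.Lib.Golay

/-- Generators of a Sylow 2-subgroup of M12 above its Frattini subgroup. -/
def m12A : List ℕ := [886239316493416264910873410806057156, 879755355343056236787865516102454784, 984522506754647797731288993272236544]

/-- Generators of the Frattini subgroup. -/
def m12B : List ℕ := [313416927933726799064412013080971553, 962749754755032699409590961299360265, 319919046303233902210579630377218080]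

/-- The central involution. -/
def m12Z : ℕ := 962749754755032699409590961299360265

/-- Square words. -/
def m12W : List (List ℕ) := [[885598658955134190538443762966268324], [313416927933726799064412013080971553], [879093312378543659879996044003904544]]

/-- Coset invariants. -/
def m12K : List ℕ := [keySet id [2704, 5600, 5608, 15608], keySet id [5604], keySet id [600, 5600], keySet id [2700], keySet id [600, 2704], keySet id [1352], keySet id [600, 2704], keySet id [1352]]

/-- Derivation. -/
def m12Steps : List Step := [.conj 721342196131778092627581701861155974 319919046303233902210579630377218080 0, .conj 318975910620007901058733039012939816 984522506754647797731288993272236544 0, .conj 719933845087550237654273671569736198 879755355343056236787865516102454784 0, .conj 610879955420975092409572787487119873 313713857185615328883026503074908161 0, .mul 3 2, .mul 4 2, .conj 653709271833995791310163889159966802 886239316493416264910873410806057156 5]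

theorem m12_cert : cert (inStab [d0] 0) m12A m12B m12Z m12W m12K m12Steps = true := by decide +kernel

theorem m12_simple (S : Sylow 2 gM12) :
    (groupFusionSystem (S : Subgroup gM12)).IsSimple 2 :=
  simple_of_cert (fun p hp => ⟨(inStab_spec hp).2, (inStab_spec hp).1⟩)
    m12_cert 1485 (by rw [gM12_card]; rfl) (by decide) (by decide) S

end Cfsg.Agent.Lib.Fusion.Mathieu
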