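import Cfsg.Agent.Lib.Fusion.MathieuCert
import Cfsg.Agent.Lib.Golay.Simple

/-! Certificate that the 2-fusion system of M23 is simple. -/

set_option autoImplicit false

namespace Cfsg.Agent.Lib.Fusion.Mathieu

open Cfsg Cfsg.Agent.Lib.Golay

/-- Generators of a Sylow 2-subgroup of M23 above its Frattini subgroup. -/
def m23A : List ℕ := [970529264532314149074020507687556146, 984642754306893001986305023279301696, 979423128190589510898656251115317280]

/-- Generators of the Frattini subgroup. -/
def m23B : List ℕ := [979604401988481838257647565893420075, 984082531397930135554948514984927616, 984778669782048816542716643500374240, 984451932767317725185682096766621792]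

/-- The central involution. -/
def m23Z : ℕ := 984593157177346685562970328217032288

/-- Square words. -/
def m23W : List (List ℕ) := [[956047637427673846721072355084580914], [984475424393599966254030948940460107], [984511116631247800904724064501945547], [979170667361812983013204065283260672]]

/-- Coset invariants. -/
def m23K : List ℕ := [keySet id [2704, 5604, 5608, 15608], keySet id [2704, 5604], keySet id [2704, 5608], keySet id [2704], keySet id [2704, 5604], keySet id [2702], keySet id [2704], keySet id [1352]]

/-- Derivation. -/
def m23Steps : List Step := [.conj 969958647323329983915851338118930851 979423128190589510898656251115317280 0, .conj 984144841212588839382941086528917778 984642754306893001986305023279301696 0, .conj 967126652427531721545607624006028740 984451932767317725185682096766621792 0, .conj 984772370971473335393754519403857099 984778669782048816542716643500374240 0, .conj 967846819601770845359679688728982148 984082531397930135554948514984927616 0, .conj 957382980268435620341009641173685615 979604401988481838257647565893420075 0, .conj 980370833363413313700017523531536481 970529264532314149074020507687556146 0]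

theorem m23_cert : cert (inStab [] (1 <<< 23)) m23A m23B m23Z m23W m23K m23Steps = true := by decide +kernel

theorem m23_simple (S : Sylow 2 gM23) :
    (groupFusionSystem (S : Subgroup gM23)).IsSimple 2 :=
  simple_of_cert (fun p hp => ⟨(inStab_spec hp).2, (inStab_spec hp).1⟩)
    m23_cert 79695 (by rw [gM23_card]; rfl) (by decide) (by decide) S

end Cfsg.Agent.Lib.Fusion.Mathieu
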