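import Cfsg.Agent.Lib.Fusion.NormalModelBase

/-!
Normal subsystems of constrained groups come from normal subgroups.
-/

set_option autoImplicit false

namespace Cfsg.Agent.Lib.Fusion.NormalModel

open Cfsg Cfsg.FusionSystem
open scoped commutatorElement

variable {G : Type*} [Group G] [Finite G] {p : ℕ} [Fact p.Prime] (S : Sylow p G) {T : Subgroup G}
  {E : FusionSystem T}

theorem conj_mem_of_closed (hTsc : (groupFusionSystem (S : Subgroup G)).StronglyClosed T) {g t : G}
    (ht : t ∈ T) (hg : g * t * g⁻¹ ∈ (S : Subgroup G)) : g * t * g⁻¹ ∈ T := by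
  have hle : Subgroup.zpowers t ≤ T := Subgroup.zpowers_le.2 ht
  have hφ : conjHom (Subgroup.zpowers t) g ∈
      (groupFusionSystem (S : Subgroup G)).Hom (Subgroup.zpowers t) := by
    refine ⟨hle.trans hTsc.1, fun ⟨x, hx⟩ => ?_, g, fun x => rfl⟩
    obtain ⟨i, rfl⟩ := Subgroup.mem_zpowers_iff.1 hx
    show g * t ^ i * g⁻¹ ∈ (S : Subgroup G)
    rw [← conj_zpow]
    exact zpow_mem hg i
  exact hTsc.2 _ hle _ hφ ⟨t, Subgroup.mem_zpowers t⟩

theorem interNormal (hTsc : (groupFusionSystem (S : Subgroup G)).StronglyClosed T) :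
    (pCore p G ⊓ T).Normal := by
  refine ⟨fun r hr g => ?_⟩
  have h1 : g * r * g⁻¹ ∈ pCore p G :=
    (Fusion.pCore_normal (p := p) (X := G)).conj_mem r hr.1 g
  have hQS : pCore p G ≤ (S : Subgroup G) :=
    @IsPGroup.le_sylow_of_normal p G _ _ Fusion.pCore_normal isPGroup_pCore S
  exact ⟨h1, conj_mem_of_closed S hTsc hr.2 (hQS h1)⟩

theorem mem_autGroup_conj {R : Subgroup G} [hR : R.Normal] (hRS : R ≤ (S : Subgroup G)) (g : G) :
    (MulAut.conjNormal g : MulAut R) ∈ (groupFusionSystem (S : Subgroup G)).autGroup R :=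
  (mem_autGroup hRS).2 ⟨hRS, fun x => hRS (MulAut.conjNormal g x).2, g, fun _ => rfl⟩

theorem exists_conj_of_mem {R : Subgroup G} [hR : R.Normal] (hRS : R ≤ (S : Subgroup G))
    {α : MulAut R} (hα : α ∈ (groupFusionSystem (S : Subgroup G)).autGroup R) :
    ∃ g : G, MulAut.conjNormal g = α := by
  obtain ⟨-, -, g, hg⟩ := (mem_autGroup hRS).1 hα
  exact ⟨g, MulEquiv.ext fun x => Subtype.ext (hg x).symm⟩

/-- The preimage of the automizer among the elements centralizing `Q / R`. -/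
abbrev bigSub (E : FusionSystem T) (R : Subgroup G) [R.Normal] : Subgroup G :=
  shiftSub (pCore p G) R ⊓
    (E.autGroup R).comap (MulAut.conjNormal : G →* MulAut R)

theorem bigSub_normal (hE : E.IsInvariantIn (groupFusionSystem (S : Subgroup G))) {R : Subgroup G}
    [R.Normal] (hR : R ≤ T) : (bigSub (p := p) E R).Normal := by
  have hQn := Fusion.pCore_normal (p := p) (X := G)
  refine ⟨fun g hg k => ⟨(shiftSub_normal _ _).conj_mem g hg.1 k, ?_⟩⟩
  show MulAut.conjNormal (k * g * k⁻¹) ∈ E.autGroup R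
  rw [map_mul, map_mul, map_inv]
  exact conj_mem_autGroup hE hR (mem_autGroup_conj S (hR.trans hE.2.1.1) k) hg.2

/-- Any element realizing an `E`-automorphism that normalizes the induced group of `T` may be taken
to centralize `Q / R`. -/
theorem exists_shift_of_normalizing
    (hG : Subgroup.centralizer ((pCore p G : Subgroup G) : Set G) ≤ pCore p G)
    (hE : E.IsNormalIn (groupFusionSystem (S : Subgroup G)) p) {R : Subgroup G} [hRn : R.Normal]
    (hRQ : R ≤ pCore p G) (hRT : R ≤ T) (hQT : pCore p G ⊓ T ≤ R)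
    (hrec : E.IsReceptive R) (hU : (bigSub (p := p) E R).Normal)
    (hTU : T ≤ bigSub (p := p) E R)
    {α : MulAut ↥R} (hα : α ∈ E.autGroup R)
    (hcop : (orderOf α).Coprime p)
    (hnorm : ∀ t ∈ autInducedBy T R, α * t * α⁻¹ ∈ autInducedBy T R) :
    ∃ g ∈ shiftSub (pCore p G) R, MulAut.conjNormal g = α := by
  classical
  obtain ⟨⟨hEs, -, hinv⟩, hext⟩ := hE
  have hTS := hinv.2.1.1
  have hQn : (pCore p G).Normal := Fusion.pCore_normal
  have hQp : IsPGroup p (pCore p G) := isPGroup_pCore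
  have hTp : IsPGroup p T := S.2.to_le hTS
  have hQS : (pCore p G) ≤ (S : Subgroup G) := @IsPGroup.le_sylow_of_normal p G _ _ hQn hQp S
  have hTN : (S : Subgroup G) ≤ Subgroup.normalizer (T : Set G) :=
    le_normalizer_of_stronglyClosed hinv.2.1
  -- extension to `T`
  have hText : T ≤ extender T R (R.subtype.comp α.toMonoidHom) := by
    intro t ht
    refine (mem_extender_iso α).2 ⟨⟨ht, mem_normalizer_of_conj_mem fun r hr => hRn.conj_mem r hr t⟩, ?_⟩
    rw [congr_eq_conj]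
    exact hnorm _ (conjAut_mem_autInducedBy ht _)
  obtain ⟨ψ, hψ, hψe⟩ := receptive_extend hrec ((mem_autGroup hRT).1 hα)
  obtain ⟨α₁, hα₁, hα₁e⟩ := exists_aut_of_self_map (restrict_mem hText hψ)
    (fun x => by exact val_mem hψ (Subgroup.inclusion hText x))
  obtain ⟨β, hβ, hβT, hβC⟩ := hext α₁ hα₁
  have hTC : T ⊔ (centralizerIn (S : Subgroup G) T) ≤ (S : Subgroup G) := sup_le hTS (centralizerIn_le _ _)
  have := finite_mulAut hTC
  have hres : ∀ r : R, ((α r : R) : G) = (β ⟨r, Subgroup.mem_sup_left (hRT r.2)⟩ : G) := by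
    intro r
    refine ((hψe r (hText (hRT r.2))).symm.trans ?_)
    refine ((hα₁e ⟨r, hRT r.2⟩).symm.trans ?_)
    exact (hβT ⟨r, hRT r.2⟩).symm
  obtain ⟨m, hm, hm1⟩ := exists_pPrime_exponent β hcop
  obtain ⟨-, -, g₀, hg₀⟩ := (mem_autGroup hTC).1 hβ
  have hg₀pow : ∀ (k : ℕ) (x : ↥(T ⊔ (centralizerIn (S : Subgroup G) T))), ((β ^ k) x : G) = g₀ ^ k * (x : G) * (g₀ ^ k)⁻¹ := by
    intro k
    induction k with
    | zero => intro x; simp
    | succ k ih =>
      intro x
      rw [pow_succ', MulAut.mul_apply]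
      refine (hg₀ _).trans ?_
      rw [ih, pow_succ']
      group
  obtain ⟨n, hn, hn1⟩ := exists_pPrime_exponent (g₀ ^ m) hm
  set g := (g₀ ^ m) ^ n
  have hgord : (orderOf g).Coprime p := hn
  have hβg : ∀ x : ↥(T ⊔ (centralizerIn (S : Subgroup G) T)), ((β ^ m) x : G) = g * (x : G) * g⁻¹ := by
    intro x
    have h1 : (β ^ m) ^ n = β ^ m := pow_eq_self_of_modEq hn1
    rw [← h1, ← pow_mul, hg₀pow, pow_mul]
  have hgR : ∀ r : R, g * (r : G) * g⁻¹ = (α r : G) := by
    intro r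
    rw [← hβg ⟨r, Subgroup.mem_sup_left (hRT r.2)⟩, ← pow_apply_eq (hRT.trans le_sup_left) hres m r,
      pow_eq_self_of_modEq hm1]
  have hgC : ∀ c ∈ (centralizerIn (S : Subgroup G) T), c⁻¹ * (g * c * g⁻¹) ∈ T ∧ ∀ t ∈ T, t * (c⁻¹ * (g * c * g⁻¹)) = c⁻¹ * (g * c * g⁻¹) * t := by
    intro c hc
    have key : ∀ (k : ℕ) (c : ↥(T ⊔ (centralizerIn (S : Subgroup G) T))), (c : G) ∈ (centralizerIn (S : Subgroup G) T) →
        (c : G)⁻¹ * ((β ^ k) c : G) ∈ T ⊓ Subgroup.centralizer (T : Set G) := by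
      intro k
      induction k with
      | zero => intro c _; simp
      | succ k ih =>
        intro c hc
        have h1 := ih c hc
        set z : T := ⟨_, h1.1⟩
        have h2 : (β ^ k) c = c * Subgroup.inclusion le_sup_left z := Subtype.ext (by simp [z])
        have h3 := hβC c hc
        have h4 : ((α₁ z : T) : G) ∈ Subgroup.centralizer (T : Set G) :=
          Subgroup.mem_centralizer_iff.2 fun t ht => by
            obtain ⟨w, hw⟩ := α₁.surjective ⟨t, ht⟩
            have h5 : w * z = z * w :=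
              Subtype.ext (Subgroup.mem_centralizer_iff.1 h1.2 w w.2)
            have h6 := congrArg α₁ h5
            rw [map_mul, map_mul, hw] at h6
            exact congrArg Subtype.val h6
        rw [pow_succ', MulAut.mul_apply, h2, map_mul, Subgroup.coe_mul, hβT z, ← mul_assoc]
        exact mul_mem h3 (Subgroup.mem_inf.2 ⟨(α₁ z).2, h4⟩)
    have h1 := key m ⟨c, Subgroup.mem_sup_right hc⟩ hc
    rw [hβg] at h1
    exact ⟨h1.1, fun t ht => Subgroup.mem_centralizer_iff.1 h1.2 t ht⟩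
  have hgT : ∃ α₂ ∈ E.autGroup T, ∀ t : T, ((α₂ t : T) : G) = g * (t : G) * g⁻¹ := by
    refine ⟨α₁ ^ m, pow_mem hα₁ m, fun t => ?_⟩
    rw [pow_apply_eq le_sup_left (fun x => (hβT x).symm) m t, hβg]
  obtain ⟨α₂, hα₂, hgT⟩ := hgT
  -- the automorphism induced on `T` by `[g, q]`
  refine ⟨g, fun q hq => ?_, MulEquiv.ext fun r => Subtype.ext (hgR r)⟩
  set w := g * q * g⁻¹ * q⁻¹
  have hwQ : w ∈ (pCore p G) := mul_mem (hQn.conj_mem q hq g) (inv_mem hq)
  have hwN := hTN (hQS hwQ)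
  have hqN := hTN (hQS hq)
  set cq := conjAut T hqN
  have hcq : cq ∈ (groupFusionSystem (S : Subgroup G)).autGroup T :=
    autInducedBy_le_autGroup hTS (conjAut_mem_autInducedBy (hQS hq) hqN)
  have hwE : conjAut T hwN ∈ E.autGroup T := by
    have h1 : conjAut T hwN = α₂ * (cq * α₂⁻¹ * cq⁻¹) := MulEquiv.ext fun t => Subtype.ext (by
      have hinvg : ∀ u : T, (((α₂⁻¹ : MulAut T) u : T) : G) = g⁻¹ * (u : G) * g := fun u => by
        have h2 := hgT ((α₂⁻¹ : MulAut T) u)
        rw [MulAut.apply_inv_self] at h2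
        rw [h2]; group
      have hinvq : ((cq⁻¹ t : T) : G) = q⁻¹ * (t : G) * q := by
        have h2 : ((cq (cq⁻¹ t) : T) : G) = q * ((cq⁻¹ t : T) : G) * q⁻¹ := rfl
        rw [MulAut.apply_inv_self] at h2
        rw [h2]; group
      show w * (t : G) * w⁻¹ = ((α₂ (cq ((α₂⁻¹ : MulAut T) (cq⁻¹ t))) : T) : G)
      rw [hgT]
      show _ = g * (q * _ * q⁻¹) * g⁻¹
      rw [hinvg, hinvq]
      simp [w, mul_assoc])
    rw [h1]
    exact mul_mem hα₂ (conj_mem_autGroup hinv le_rfl hcq (inv_mem hα₂))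
  have hwI : conjAut T hwN ∈ Inn T := by
    have hsyl := fullyAutomized_inn hTp hEs
    obtain ⟨k, hk⟩ := hQp ⟨w, hwQ⟩
    have hk' : w ^ p ^ k = 1 := congrArg Subtype.val hk
    have hpk : (conjAut T hwN) ^ p ^ k = 1 := by
      have hj : ∀ (j : ℕ) (t : T), (((conjAut T hwN) ^ j) t : G) = w ^ j * (t : G) * (w ^ j)⁻¹ := by
        intro j
        induction j with
        | zero => intro t; simp
        | succ j ih =>
          intro t
          rw [pow_succ', MulAut.mul_apply]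
          show w * _ * w⁻¹ = _
          rw [ih, pow_succ']; group
      exact MulEquiv.ext fun t => Subtype.ext (by rw [hj, hk']; simp)
    have hle : Inn T ⊔ Subgroup.zpowers (conjAut T hwN) ≤ E.autGroup T :=
      sup_le (inn_le_autGroup le_rfl) (Subgroup.zpowers_le.2 hwE)
    have := finite_mulAut hTS
    have hp : IsPGroup p ↥(Inn T ⊔ Subgroup.zpowers (conjAut T hwN)) := by
      refine IsPGroup.to_sup_of_normal_left' hsyl.2.1 ?_ ?_
      · rintro ⟨_, j, rfl⟩
        exact ⟨k, Subtype.ext (by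
          simp only [SubmonoidClass.coe_pow, OneMemClass.coe_one]
          rw [← zpow_natCast, ← zpow_mul, mul_comm, zpow_mul, zpow_natCast, hpk, one_zpow])⟩
      · intro a _
        rw [Subgroup.normalizer_eq_top]
        exact Subgroup.mem_top a
    exact (hsyl.eq_of_le le_sup_left hle hp).le (Subgroup.mem_sup_right (Subgroup.mem_zpowers _))
  obtain ⟨t, ht⟩ := hwI
  set c := (t : G)⁻¹ * w
  have hcC : c ∈ (centralizerIn (S : Subgroup G) T) := by
    refine mem_centralizerIn.2 ⟨mul_mem (inv_mem (hTS t.2)) (hQS hwQ), fun u hu => ?_⟩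
    have h1 : (t : G) * u * (t : G)⁻¹ = w * u * w⁻¹ :=
      congrArg (fun f : MulAut T => ((f ⟨u, hu⟩ : T) : G)) ht
    calc u * ((t : G)⁻¹ * w) = (t : G)⁻¹ * ((t : G) * u * (t : G)⁻¹) * w := by group
      _ = (t : G)⁻¹ * (w * u * w⁻¹) * w := by rw [h1]
      _ = (t : G)⁻¹ * w * u := by group
  -- `t` lies in `(pCore p G)`
  let c' : G →* MulAut R := MulAut.conjNormal
  let W : Subgroup G := bigSub (p := p) E R ⊓ ((pCore p G).map c').comap c'
  have hWn : W.Normal := by
    have h1 : ((pCore p G) ⊔ c'.ker).Normal := inferInstance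
    have h2 : ((pCore p G).map c').comap c' = (pCore p G) ⊔ c'.ker := Subgroup.comap_map_eq _ _
    show (bigSub (p := p) E R ⊓ ((pCore p G).map c').comap c').Normal
    rw [h2]
    infer_instance
  have hWp : IsPGroup p W := isPGroup_of_coprime_trivial fun u hu hucop => by
    obtain ⟨v, hv, hvu⟩ := hu.2
    obtain ⟨k, hk⟩ := hQp ⟨v, hv⟩
    have hk' : v ^ p ^ k = 1 := congrArg Subtype.val hk
    have h1 : c' u = 1 := eq_one_of_pGroup_coprime
      ⟨k, by rw [← hvu, ← map_pow, hk', map_one]⟩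
      (orderOf_dvd_iff_pow_eq_one.1 (orderOf_map_dvd c' u) ▸ rfl : c' u ^ orderOf u = 1) hucop
    have huX : u ∈ shiftSub (pCore p G) R ⊓ Subgroup.centralizer (R : Set G) :=
      ⟨hu.1.1, Subgroup.mem_centralizer_iff.2 fun r hr => by
        have h2 := congrArg (fun f : MulAut R => ((f ⟨r, hr⟩ : R) : G)) h1
        exact (mul_inv_eq_iff_eq_mul.1 h2).symm⟩
    obtain ⟨j, hj⟩ := hQp ⟨u, shift_inf_centralizer_le hG hRQ huX⟩
    exact eq_one_of_pGroup_coprime ⟨j, congrArg Subtype.val hj⟩ (pow_orderOf_eq_one u) hucop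
  have htW : (t : G) ∈ W := by
    refine ⟨hTU t.2, w, hwQ, MulEquiv.ext fun r => Subtype.ext ?_⟩
    show w * (r : G) * w⁻¹ = (t : G) * (r : G) * (t : G)⁻¹
    exact (congrArg (fun f : MulAut T => ((f ⟨r, hRT r.2⟩ : T) : G)) ht).symm
  have htR : (t : G) ∈ R := hQT ⟨le_pCore hWn hWp htW, t.2⟩
  have hcQ : c ∈ (pCore p G) := mul_mem (inv_mem (hRQ htR)) hwQ
  have hgc : g * c * g⁻¹ * c⁻¹ ∈ R := by
    obtain ⟨h1, h2⟩ := hgC c hcC
    have h3 : c⁻¹ * (g * c * g⁻¹) ∈ R := hQT (Subgroup.mem_inf.2 ⟨mul_mem (inv_mem hcQ) (hQn.conj_mem c hcQ g), h1⟩)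
    have h4 := hRn.conj_mem _ h3 c
    simpa [mul_assoc] using h4
  -- pass to the quotient by `R`
  let π := QuotientGroup.mk' R
  have e1 : π g * π q * (π g)⁻¹ = π c * π q := by
    rw [← map_inv, ← map_mul, ← map_mul, ← map_mul, show g * q * g⁻¹ = (t : G) * (c * q) by
      simp [c, w, mul_assoc], map_mul π (t : G), show π (t : G) = 1 from
      (QuotientGroup.eq_one_iff _).2 htR, one_mul]
  have e2 : π g * π c * (π g)⁻¹ = π c := by
    rw [← mul_inv_eq_one, ← map_inv, ← map_inv, ← map_mul, ← map_mul, ← map_mul]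
    exact (QuotientGroup.eq_one_iff _).2 hgc
  have h5 := pow_conj_eq e2 e1 (orderOf g)
  rw [← map_pow, pow_orderOf_eq_one, map_one, one_mul, inv_one, mul_one, eq_comm, mul_eq_right] at h5
  obtain ⟨k, hk⟩ := hQp ⟨c, hcQ⟩
  have hk' : c ^ p ^ k = 1 := congrArg Subtype.val hk
  have h6 : π c = 1 := eq_one_of_pGroup_coprime ⟨k, by rw [← map_pow, hk', map_one]⟩ h5 hgord
  rw [show w = (t : G) * c by simp [c]]
  exact mul_mem htR ((QuotientGroup.eq_one_iff c).1 h6)

end Cfsg.Agent.Lib.Fusion.NormalModel
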