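import Cfsg.Agent.Lib.Fusion.Weakly
import Cfsg.Agent.Lib.Fusion.SmallExp

/-!
The `p`-local pieces attached to a normal subsystem of a constrained group.
-/

set_option autoImplicit false

namespace Cfsg.Agent.Lib.Fusion.NormalModel

open Cfsg Cfsg.FusionSystem
open scoped commutatorElement

/-- Automorphism groups of an invariant subsystem are normalized by those of the system. -/
theorem conj_mem_autGroup {Ω : Type*} [Group Ω] {S T : Subgroup Ω} {F : FusionSystem S}
    {E : FusionSystem T} (h : E.IsInvariantIn F) {R : Subgroup Ω} (hR : R ≤ T) {a ε : MulAut R}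
    (ha : a ∈ F.autGroup R) (hε : ε ∈ E.autGroup R) : a * ε * a⁻¹ ∈ E.autGroup R := by
  refine (mem_autGroup hR).2 (IsInvariantIn.strongInvariant h R R R le_rfl hR _
    ((mem_autGroup hR).1 hε) (fun x => (ε x).2) _ ((mem_autGroup (hR.trans h.2.1.1)).1 ha) a
    (fun x => rfl) _ fun x => ?_)
  simp

variable {G : Type*} [Group G] {p : ℕ}

/-- The elements centralizing `Q` modulo the normal subgroup `R`. -/
def shiftSub (Q R : Subgroup G) [hR : R.Normal] : Subgroup G where
  carrier := {g | ∀ q ∈ Q, g * q * g⁻¹ * q⁻¹ ∈ R}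
  one_mem' := fun q _ => by simp
  mul_mem' := fun {g h} hg hh q hq => by
    have h1 := R.mul_mem (hR.conj_mem _ (hh q hq) g) (hg q hq)
    simpa [mul_assoc] using h1
  inv_mem' := fun {g} hg q hq => by
    have h1 := hR.conj_mem _ (R.inv_mem (hg q hq)) g⁻¹
    simpa [mul_assoc] using h1

theorem mem_shiftSub {Q R : Subgroup G} [R.Normal] {g : G} :
    g ∈ shiftSub Q R ↔ ∀ q ∈ Q, g * q * g⁻¹ * q⁻¹ ∈ R := Iff.rfl

theorem shiftSub_normal (Q R : Subgroup G) [hQ : Q.Normal] [hR : R.Normal] :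
    (shiftSub Q R).Normal := by
  refine ⟨fun g hg k q hq => ?_⟩
  have h1 := hR.conj_mem _ (hg (k⁻¹ * q * k) (by simpa using hQ.conj_mem q hq k⁻¹)) k
  simpa [mul_assoc] using h1

theorem pow_conj_eq {g c x : G} (hc : g * c * g⁻¹ = c) (hx : g * x * g⁻¹ = c * x) (k : ℕ) :
    g ^ k * x * (g ^ k)⁻¹ = c ^ k * x := by
  induction k with
  | zero => simp
  | succ k ih =>
    calc g ^ (k + 1) * x * (g ^ (k + 1))⁻¹ = g * (g ^ k * x * (g ^ k)⁻¹) * g⁻¹ := by
          rw [pow_succ']; group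
      _ = (g * c * g⁻¹) ^ k * (g * x * g⁻¹) := by rw [ih, conj_pow]; group
      _ = _ := by rw [hc, hx, pow_succ, mul_assoc]

variable [Finite G] [Fact p.Prime]

theorem isPGroup_of_coprime_trivial {U : Subgroup G}
    (h : ∀ g ∈ U, (orderOf g).Coprime p → g = 1) : IsPGroup p U := fun ⟨g, hg⟩ => by
  obtain ⟨k, hk⟩ := Transfer.exists_pow_coprime (p := p) g
  exact ⟨k, Subtype.ext (h _ (pow_mem hg _) hk)⟩

/-- Elements centralizing `R` and `Q / R` lie in `Q`. -/
theorem shift_inf_centralizer_le (hG : Subgroup.centralizer ((pCore p G : Subgroup G) : Set G) ≤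
      pCore p G) {R : Subgroup G} [R.Normal] (hRQ : R ≤ pCore p G) :
    shiftSub (pCore p G) R ⊓ Subgroup.centralizer (R : Set G) ≤ pCore p G := by
  have hQn := Fusion.pCore_normal (p := p) (X := G)
  have := shiftSub_normal (pCore p G) R
  refine le_pCore inferInstance (isPGroup_of_coprime_trivial fun g hg hcop => ?_)
  have hQ : IsPGroup p (pCore p G) := isPGroup_pCore
  have hfix : ∀ q ∈ pCore p G, g * q * g⁻¹ = q := by
    intro q hq
    set c := g * q * g⁻¹ * q⁻¹
    have hcR : c ∈ R := hg.1 q hq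
    have hc : g * c * g⁻¹ = c := mul_inv_eq_iff_eq_mul.2 (Subgroup.mem_centralizer_iff.1 hg.2 c hcR).symm
    have h1 := pow_conj_eq hc (show g * q * g⁻¹ = c * q by simp [c]) (orderOf g)
    rw [pow_orderOf_eq_one, one_mul, inv_one, mul_one, eq_comm, mul_eq_right] at h1
    have h2 : c = 1 := by
      obtain ⟨k, hk⟩ := hQ ⟨c, hRQ hcR⟩
      exact eq_one_of_pGroup_coprime ⟨k, congrArg Subtype.val hk⟩ h1 hcop
    simpa [c] using mul_inv_eq_one.1 h2
  have hgQ : g ∈ pCore p G := hG (Subgroup.mem_centralizer_iff.2 fun q hq => by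
    exact (mul_inv_eq_iff_eq_mul.1 (hfix q hq)).symm)
  obtain ⟨k, hk⟩ := hQ ⟨g, hgQ⟩
  exact eq_one_of_pGroup_coprime ⟨k, congrArg Subtype.val hk⟩ (pow_orderOf_eq_one g) hcop

end Cfsg.Agent.Lib.Fusion.NormalModel
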