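import Cfsg.Agent.Lib.Fusion.NormalModel

/-!
Existence and uniqueness of the normal subgroup carrying a normal subsystem.
-/

set_option autoImplicit false

namespace Cfsg.Agent.Lib.Fusion.NormalModel

open Cfsg Cfsg.FusionSystem
open scoped commutatorElement

variable {G : Type*} [Group G] [Finite G] {p : ℕ} [Fact p.Prime] (S : Sylow p G) {T : Subgroup G}
  {E : FusionSystem T}

theorem isNormal_of_normal_pgroup {D : FusionSystem T} (hT : IsPGroup p T) (hD : D.IsSaturated p)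
    (hle : D.IsSubsystemOf (groupFusionSystem (S : Subgroup G))) {R : Subgroup G} [hR : R.Normal]
    (hRT : R ≤ T) : D.IsNormal R := by
  refine isNormal_of_lcs_closed hT hD hRT fun k =>
    ⟨(R.lowerCentralSeries_le_self k).trans hRT, fun P hP φ hφ x => ?_⟩
  obtain ⟨-, -, g, hg⟩ := hle P hφ
  have hx := hP x.2
  rw [hg]
  have := lcs_characteristic R k
  exact (Subgroup.characteristic_iff_map_eq.1 this (MulAut.conjNormal g : MulAut R)).le
    ⟨⟨x, R.lowerCentralSeries_le_self k hx⟩, hx, rfl⟩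

theorem isReceptive_of_normal_pgroup {D : FusionSystem T} (hT : IsPGroup p T)
    (hD : D.IsSaturated p) {R : Subgroup G} (hRn : D.IsNormal R) :
    D.IsFullyNormalized R ∧ D.IsReceptive R ∧
      IsSylowIn p (autInducedBy T R) (D.autGroup R) := by
  have := finite_of_le hRn.1
  have hconj : ∀ R', D.IsConj R R' → R' = R := fun R' hR' => by
    obtain ⟨e, he⟩ := isConj_iff_iso.1 hR'
    refine eq_of_le_of_natCard_le ?_ (Nat.card_congr e.toEquiv).le
    intro r hr
    have := map_mem_of_normal hRn he (e.symm ⟨r, hr⟩) (e.symm ⟨r, hr⟩).2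
    simpa using this
  have hfn : D.IsFullyNormalized R := ⟨hRn.1, fun R' hR' => by rw [hconj R' hR']⟩
  obtain ⟨hFA, hrec⟩ := fullyNormalized_props hT hD hfn
  exact ⟨hfn, hrec, (isFullyAutomized_iff.1 hFA).2⟩

/-- A coprime element in the product of a normal subgroup and a `p`-subgroup lies in the normal
subgroup. -/
theorem mem_of_factor {A : Type*} [Group A] [Finite A] {B K : Subgroup A} (hB : B.Normal)
    (hK : IsPGroup p K) {α η : A} (hη : η ∈ B) (hk : η⁻¹ * α ∈ K)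
    (hcop : (orderOf α).Coprime p) : α ∈ B := by
  rw [← QuotientGroup.eq_one_iff]
  obtain ⟨k, hk'⟩ := hK ⟨_, hk⟩
  have h1 : ((η⁻¹ * α : A) : A ⧸ B) = (α : A ⧸ B) := by
    rw [QuotientGroup.mk_mul, QuotientGroup.mk_inv, (QuotientGroup.eq_one_iff η).2 hη, inv_one, one_mul]
  refine eq_one_of_pGroup_coprime ⟨k, ?_⟩
    (show (α : A ⧸ B) ^ orderOf α = 1 by rw [← QuotientGroup.mk_pow, pow_orderOf_eq_one]; rfl) hcop
  rw [← h1, ← QuotientGroup.mk_pow, show (η⁻¹ * α) ^ p ^ k = 1 from congrArg Subtype.val hk']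
  rfl

theorem autGroup_le_map (hG : Subgroup.centralizer ((pCore p G : Subgroup G) : Set G) ≤ pCore p G)
    (hE : E.IsNormalIn (groupFusionSystem (S : Subgroup G)) p) {R : Subgroup G} [R.Normal]
    (hRQ : R ≤ pCore p G) (hRT : R ≤ T) (hQT : pCore p G ⊓ T ≤ R)
    (hU : (bigSub (p := p) E R).Normal) (hTU : T ≤ bigSub (p := p) E R) :
    E.autGroup R ≤ (bigSub (p := p) E R).map (MulAut.conjNormal : G →* MulAut R) := by
  have hTS := hE.1.2.2.2.1.1
  have hTp : IsPGroup p T := S.2.to_le hTS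
  have hRn := isNormal_of_normal_pgroup S hTp hE.1.1 hE.1.2.2.1 hRT
  obtain ⟨-, hrec, hsyl⟩ := isReceptive_of_normal_pgroup hTp hE.1.1 hRn
  have hRS := hRT.trans hTS
  have := finite_mulAut hRS
  let c : G →* MulAut R := MulAut.conjNormal
  let B := (bigSub (p := p) E R).map c
  have hBA : B ≤ E.autGroup R := by
    rintro _ ⟨u, hu, rfl⟩
    exact hu.2
  have hTB : autInducedBy T R ≤ B := by
    intro t ht
    obtain ⟨g, ⟨hgT, hgN⟩, hte⟩ := exists_of_mem_autInducedBy ht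
    exact ⟨g, hTU hgT, MulEquiv.ext fun r => Subtype.ext (hte r).symm⟩
  have hBn : E.autGroup R ≤ Subgroup.normalizer (B : Set (MulAut R)) := by
    intro a ha
    obtain ⟨g, hg⟩ := exists_conj_of_mem S hRS
      (autGroup_mono_of_subsystem hE.1.2.2.1 R ha)
    refine mem_normalizer_of_conj_mem fun b hb => ?_
    obtain ⟨u, hu, rfl⟩ := hb
    exact ⟨g * u * g⁻¹, hU.conj_mem u hu g, by rw [map_mul, map_mul, map_inv, hg]⟩
  intro a ha
  obtain ⟨n, hn, hna⟩ := hsyl.exists_frattini hBA hBn ha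
  rw [inf_eq_left.2 hTB] at hna
  suffices h : n * a ∈ B by show a ∈ B; simpa using mul_mem (inv_mem hn) h
  set α := n * a
  have hα : α ∈ E.autGroup R := mul_mem (hBA hn) ha
  obtain ⟨k, m, hm, hkm⟩ :=
    Nat.exists_eq_pow_mul_and_not_dvd (orderOf_pos α).ne' p (Fact.out : p.Prime).ne_one
  have hmp : m.Coprime p := (((Fact.out : p.Prime).coprime_iff_not_dvd).2 hm).symm
  let N := autInducedBy T R
  have hnorm : α ∈ Subgroup.normalizer (N : Set (MulAut R)) :=
    mem_normalizer_of_conj_mem fun t ht => hna t ht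
  have h1 : α ^ m ∈ B := by
    have hle : N ⊔ Subgroup.zpowers (α ^ m) ≤ E.autGroup R :=
      sup_le hsyl.1 (Subgroup.zpowers_le.2 (pow_mem hα m))
    have hp : IsPGroup p ↥(N ⊔ Subgroup.zpowers (α ^ m)) := by
      refine IsPGroup.to_sup_of_normal_left' hsyl.2.1 ?_
        (Subgroup.zpowers_le.2 (pow_mem hnorm m))
      rintro ⟨_, j, rfl⟩
      refine ⟨k, Subtype.ext ?_⟩
      simp only [SubmonoidClass.coe_pow, OneMemClass.coe_one]
      rw [← zpow_natCast, ← zpow_mul, mul_comm, zpow_mul, zpow_natCast, ← pow_mul, mul_comm m,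
        ← hkm, pow_orderOf_eq_one, one_zpow]
    exact hTB ((hsyl.eq_of_le le_sup_left hle hp).le
      (Subgroup.mem_sup_right (Subgroup.mem_zpowers _)))
  have h2 : α ^ p ^ k ∈ B := by
    have hcop : (orderOf (α ^ p ^ k)).Coprime p := by
      refine hmp.coprime_dvd_left (orderOf_dvd_of_pow_eq_one ?_)
      rw [← pow_mul, ← hkm, pow_orderOf_eq_one]
    have hnk := pow_mem hnorm (p ^ k)
    obtain ⟨g, hg, hgα⟩ := exists_shift_of_normalizing S hG hE hRQ hRT hQT hrec hU hTU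
      (pow_mem hα _) hcop fun t ht => conj_mem_of_mem_normalizer hnk ht
    exact ⟨g, ⟨hg, show MulAut.conjNormal g ∈ E.autGroup R from hgα ▸ pow_mem hα _⟩, hgα⟩
  have hco : (p ^ k).Coprime m := (hmp.symm.pow_left k)
  have hb := Nat.gcd_eq_gcd_ab (p ^ k) m
  rw [hco] at hb
  have h3 : α = (α ^ p ^ k) ^ Nat.gcdA (p ^ k) m * (α ^ m) ^ Nat.gcdB (p ^ k) m := by
    rw [← zpow_natCast α, ← zpow_natCast α m, ← zpow_mul, ← zpow_mul, ← zpow_add, ← hb,
      Nat.cast_one, zpow_one]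
  rw [h3]
  exact mul_mem (zpow_mem h2 _) (zpow_mem h1 _)

/-- The kernel used to compare two subsystems on a subgroup containing `R`. -/
theorem exists_chain_kernel {R P : Subgroup G} [hR : R.Normal] (hRP : R ≤ P)
    (hPS : P ≤ (S : Subgroup G)) :
    ∃ K : Subgroup ((groupFusionSystem (S : Subgroup G)).autGroup P), IsPGroup p K ∧
      ∀ α : (groupFusionSystem (S : Subgroup G)).autGroup P,
        (∀ x : P, (x : G) ∈ R → (α : MulAut P) x = x) →
        (∀ x : P, (((α : MulAut P) x : P) : G) * (x : G)⁻¹ ∈ R) → α ∈ K := by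
  let D : ℕ → Subgroup P := fun i => if i = 0 then ⊥ else if i = 1 then R.subgroupOf P else ⊤
  have hinv : ∀ α ∈ (groupFusionSystem (S : Subgroup G)).autGroup P, ∀ i, ∀ x ∈ D i, α x ∈ D i := by
    intro α hα i x hx
    simp only [D] at hx ⊢
    split_ifs at hx ⊢
    · rw [Subgroup.mem_bot] at hx ⊢; rw [hx, map_one]
    · obtain ⟨-, -, g, hg⟩ := (mem_autGroup hPS).1 hα
      rw [Subgroup.mem_subgroupOf] at hx ⊢
      rw [show ((α x : P) : G) = g * (x : G) * g⁻¹ from hg x]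
      exact hR.conj_mem _ hx g
    · exact Subgroup.mem_top _
  obtain ⟨K, -, hKp, hK⟩ := chainStabilizer (p := p)
    ((groupFusionSystem (S : Subgroup G)).autGroup P) 2 D rfl rfl hinv (S.2.to_le hPS)
  refine ⟨K, hKp, fun α h1 h2 => (hK α).2 fun i hi x hx => ?_⟩
  rcases show i = 0 ∨ i = 1 by omega with rfl | rfl
  · simp only [D, zero_add, one_ne_zero, if_false, if_true] at hx ⊢
    rw [Subgroup.mem_bot, h1 x hx, mul_inv_cancel]
  · simpa [D, Subgroup.mem_subgroupOf] using h2 x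

theorem centralizer_inf_le (hG : Subgroup.centralizer ((pCore p G : Subgroup G) : Set G) ≤
    pCore p G) {R : Subgroup G} [R.Normal] (hRQ : R ≤ pCore p G) {H : Subgroup G}
    (hH : H ≤ shiftSub (pCore p G) R) (hHR : pCore p G ⊓ H ≤ R) {d : G} (hd : d ∈ H)
    (hdc : ∀ r ∈ R, d * r * d⁻¹ = r) : d ∈ R :=
  hHR ⟨shift_inf_centralizer_le hG hRQ ⟨hH hd, Subgroup.mem_centralizer_iff.2 fun r hr =>
    (mul_inv_eq_iff_eq_mul.1 (hdc r hr)).symm⟩, hd⟩

/-- Equality of the subsystem with the system of the normal subgroup. -/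
theorem hom_eq (hG : Subgroup.centralizer ((pCore p G : Subgroup G) : Set G) ≤ pCore p G)
    (hE : E.IsNormalIn (groupFusionSystem (S : Subgroup G)) p) {R : Subgroup G} [hRn : R.Normal]
    (hRQ : R ≤ pCore p G) (hRT : R ≤ T) {H : Subgroup G} [hHn : H.Normal] (hTH : T ≤ H)
    (hsyl : IsSylowIn p T H) (hH : H ≤ shiftSub (pCore p G) R) (hHR : pCore p G ⊓ H ≤ R)
    (hmap : H.map (MulAut.conjNormal : G →* MulAut R) = E.autGroup R) (P : Subgroup G) :
    E.Hom P = (fusionSystemOfSubgroup H T hTH).Hom P := by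
  have hinv := hE.1.2.2
  have hTS := hinv.2.1.1
  have hTp : IsPGroup p T := S.2.to_le hTS
  set E' := fusionSystemOfSubgroup H T hTH
  have hE's : E'.IsSaturated p := fusionSystemOfSubgroup_saturated hTH hsyl
  have hE'le : E'.IsSubsystemOf (groupFusionSystem (S : Subgroup G)) := fun P φ hφ =>
    ⟨hφ.1.trans hTS, fun x => hTS (hφ.2.1 x), hφ.2.2.choose, hφ.2.2.choose_spec.2⟩
  refine Set.Subset.antisymm ?_ ?_
  · refine (alperin hTp hE.1.1 E' fun X hX => ?_) P
    obtain ⟨hc, hr, hn⟩ := centric_radical_of_top_or_essential hTp hE.1.1 hX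
    have hRX := le_of_isNormal hTp (isNormal_of_normal_pgroup S hTp hE.1.1 hinv.1 hRT) hc hr
    have hXT := hn.1
    have hXS := hXT.trans hTS
    refine autGroup_le_of_coprime hTp hE.1.1 hn _ (autInducedBy_le_autGroup hXT) fun α hα hcop => ?_
    have hαF := autGroup_mono_of_subsystem hinv.1 X hα
    obtain ⟨-, -, g, hg⟩ := (mem_autGroup hXS).1 hαF
    have hgα : ∀ x : X, ((α x : X) : G) = g * (x : G) * g⁻¹ := hg
    have hgR : MulAut.conjNormal g ∈ E.autGroup R := by
      refine (mem_autGroup hRT).2 (mem_of_agree hRX ((mem_autGroup hXT).1 hα) fun x => ?_)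
      exact (hgα ⟨x, hRX x.2⟩).symm
    obtain ⟨h, hh, hhg⟩ := hmap.ge hgR
    have heq : ∀ r ∈ R, h * r * h⁻¹ = g * r * g⁻¹ := fun r hr' =>
      congrArg (fun f : MulAut R => ((f ⟨r, hr'⟩ : R) : G)) hhg
    have hδ : ∀ x : X, (g * (x : G) * g⁻¹) * (h * (x : G) * h⁻¹)⁻¹ ∈ R := by
      intro x
      refine centralizer_inf_le hG hRQ hH hHR (mul_mem
        (by rw [← hgα]; exact hTH (hXT (α x).2))
        (inv_mem (mul_mem (mul_mem hh (hTH (hXT x.2))) (inv_mem hh)))) fun r hr' => ?_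
      have hr1 : h⁻¹ * r * h ∈ R := by simpa using hRn.conj_mem r hr' h⁻¹
      have e1 := heq ((x : G)⁻¹ * (h⁻¹ * r * h) * x) (by simpa using hRn.conj_mem _ hr1 (x : G)⁻¹)
      have e2 := heq _ hr1
      calc g * (x : G) * g⁻¹ * (h * (x : G) * h⁻¹)⁻¹ * r * (g * (x : G) * g⁻¹ * (h * (x : G) * h⁻¹)⁻¹)⁻¹
          = g * (x : G) * g⁻¹ * (h * ((x : G)⁻¹ * (h⁻¹ * r * h) * x) * h⁻¹) * (g * (x : G)⁻¹ * g⁻¹) := by group
        _ = g * (h⁻¹ * r * h) * g⁻¹ := by rw [e1]; group
        _ = r := by rw [← e2]; group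
    have hXn : h ∈ Subgroup.normalizer (X : Set G) := by
      have := finite_of_le hXS
      refine mem_normalizer_of_conj_mem fun x hx => ?_
      have h1 := mul_mem (inv_mem (hRX (hδ ⟨x, hx⟩))) (α ⟨x, hx⟩).2
      rw [hgα] at h1
      simpa [mul_assoc] using h1
    have hηF : conjAut X hXn ∈ (groupFusionSystem (S : Subgroup G)).autGroup X :=
      (mem_autGroup hXS).2 ⟨hXS, fun x => hXS (conjAut X hXn x).2, h, fun x => rfl⟩
    have hηE : conjAut X hXn ∈ E'.autGroup X :=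
      (mem_autGroup hXT).2 ⟨hXT, fun x => hXT (conjAut X hXn x).2, h, hh, fun x => rfl⟩
    obtain ⟨K, hKp, hK⟩ := exists_chain_kernel S hRX hXS
    have := finite_mulAut hXS
    have hBn : ((E'.autGroup X).subgroupOf
        ((groupFusionSystem (S : Subgroup G)).autGroup X)).Normal := ⟨fun b hb a => by
      obtain ⟨-, -, u, hu, hbu⟩ := (mem_autGroup hXT).1 hb
      obtain ⟨-, -, v, hv⟩ := (mem_autGroup hXS).1 a.2
      refine (mem_autGroup hXT).2 ⟨hXT, fun x => hXT (((a * b * a⁻¹ : _) : MulAut X) x).2, v * u * v⁻¹,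
        hHn.conj_mem u hu v, fun x => ?_⟩
      have h1 : (((a : MulAut X)⁻¹ x : X) : G) = v⁻¹ * (x : G) * v := by
        have h2 := hv ((a : MulAut X)⁻¹ x)
        simp only [MonoidHom.coe_comp, Function.comp_apply, Subgroup.coe_subtype,
          MulEquiv.coe_toMonoidHom, MulAut.apply_inv_self] at h2
        rw [h2]; group
      show (((a : MulAut X) ((b : MulAut X) ((a : MulAut X)⁻¹ x)) : X) : G) = _
      rw [show (((a : MulAut X) ((b : MulAut X) ((a : MulAut X)⁻¹ x)) : X) : G) =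
        v * (((b : MulAut X) ((a : MulAut X)⁻¹ x) : X) : G) * v⁻¹ from hv _,
        show (((b : MulAut X) ((a : MulAut X)⁻¹ x) : X) : G) =
        u * (((a : MulAut X)⁻¹ x : X) : G) * u⁻¹ from hbu _, h1]
      group⟩
    refine mem_of_factor (p := p) (B := (E'.autGroup X).subgroupOf _) hBn hKp
      (α := ⟨α, hαF⟩) (η := ⟨_, hηF⟩) hηE (hK _ ?_ ?_) (by rw [← Subgroup.orderOf_coe]; exact hcop)
    all_goals
      intro x
      have hinvh : ∀ u : X, (((conjAut X hXn)⁻¹ u : X) : G) = h⁻¹ * (u : G) * h := fun u => by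
        have h2 : h * (((conjAut X hXn)⁻¹ u : X) : G) * h⁻¹ = u :=
          congrArg Subtype.val (MulAut.apply_inv_self _ (conjAut X hXn) u)
        conv_rhs => rw [← h2]
        group
    · intro hxR
      refine Subtype.ext ?_
      show (((conjAut X hXn)⁻¹ (α x) : X) : G) = x
      rw [hinvh, hgα, ← heq _ hxR]
      group
    · show (((conjAut X hXn)⁻¹ (α x) : X) : G) * (x : G)⁻¹ ∈ R
      rw [hinvh, hgα]
      have h3 := hRn.conj_mem _ (hδ x) h⁻¹
      simpa [mul_assoc] using h3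
  · refine (alperin hTp hE's E fun X hX => ?_) P
    obtain ⟨hc, hr, hn⟩ := centric_radical_of_top_or_essential hTp hE's hX
    have hRX := le_of_isNormal hTp (isNormal_of_normal_pgroup S hTp hE's hE'le hRT) hc hr
    have hXT := hn.1
    have hXS := hXT.trans hTS
    refine autGroup_le_of_coprime hTp hE's hn _ (autInducedBy_le_autGroup hXT) fun α hα hcop => ?_
    have hαF := autGroup_mono_of_subsystem hE'le X hα
    obtain ⟨-, -, h, hh, hhα⟩ := (mem_autGroup hXT).1 hα
    have hhα' : ∀ x : X, ((α x : X) : G) = h * (x : G) * h⁻¹ := hhα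
    set a : MulAut R := MulAut.conjNormal h
    have ha : a ∈ E.autGroup R := hmap.le ⟨h, hh, rfl⟩
    obtain ⟨-, hrec, -⟩ := isReceptive_of_normal_pgroup hTp hE.1.1
      (isNormal_of_normal_pgroup S hTp hE.1.1 hinv.1 hRT)
    obtain ⟨ψ, hψ, hψe⟩ := receptive_extend hrec ((mem_autGroup hRT).1 ha)
    have hXext : X ≤ extender T R (R.subtype.comp a.toMonoidHom) := by
      intro x hx
      refine (mem_extender_iso a).2
        ⟨⟨hXT hx, mem_normalizer_of_conj_mem fun r hr' => hRn.conj_mem r hr' x⟩, ?_⟩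
      refine mem_autInducedBy.2 ⟨(α ⟨x, hx⟩ : X), hXT (α ⟨x, hx⟩).2, fun r => ?_⟩
      rw [congr_eq_conj]
      have h1 : ((a⁻¹ r : R) : G) = h⁻¹ * (r : G) * h := by
        have h2 : h * ((a⁻¹ r : R) : G) * h⁻¹ = r :=
          congrArg Subtype.val (MulAut.apply_inv_self _ a r)
        conv_rhs => rw [← h2]
        group
      show ((a (conjAut R _ (a⁻¹ r)) : R) : G) = _
      show h * (x * ((a⁻¹ r : R) : G) * x⁻¹) * h⁻¹ = _
      rw [h1, hhα']
      group
    let ψ' : X →* G := ψ.comp (Subgroup.inclusion hXext)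
    have hψ' : ψ' ∈ E.Hom X := restrict_mem hXext hψ
    obtain ⟨-, -, u, hu⟩ := hinv.1 X hψ'
    have hψ'R : ∀ r ∈ R, u * r * u⁻¹ = h * r * h⁻¹ := fun r hr' =>
      (hu ⟨r, hRX hr'⟩).symm.trans (hψe ⟨r, hr'⟩ (hXext (hRX hr')))
    have hδ : ∀ x : X, (h * (x : G) * h⁻¹) * (ψ' x)⁻¹ ∈ R := by
      intro x
      refine centralizer_inf_le hG hRQ hH hHR (mul_mem
        (by rw [← hhα']; exact hTH (hXT (α x).2))
        (inv_mem (hTH (val_mem hψ' x)))) fun r hr' => ?_
      have hu' := hu x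
      rw [hu']
      have hr1 : u⁻¹ * r * u ∈ R := by simpa using hRn.conj_mem r hr' u⁻¹
      have hr2 : (x : G)⁻¹ * (u⁻¹ * r * u) * x ∈ R := by simpa using hRn.conj_mem _ hr1 (x : G)⁻¹
      calc h * (x : G) * h⁻¹ * (u * (x : G) * u⁻¹)⁻¹ * r * (h * (x : G) * h⁻¹ * (u * (x : G) * u⁻¹)⁻¹)⁻¹
          = h * (x : G) * h⁻¹ * (u * ((x : G)⁻¹ * (u⁻¹ * r * u) * x) * u⁻¹) * (h * (x : G)⁻¹ * h⁻¹) := by group
        _ = h * (u⁻¹ * r * u) * h⁻¹ := by rw [hψ'R _ hr2]; group
        _ = r := by rw [← hψ'R _ hr1]; group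
    have hψX : ∀ x : X, ψ' x ∈ X := fun x => by
      have h1 := mul_mem (inv_mem (hRX (hδ x))) (α x).2
      rw [hhα'] at h1
      simpa [mul_assoc] using h1
    obtain ⟨η, hη, hηe⟩ := exists_aut_of_self_map hψ' hψX
    have hηF := autGroup_mono_of_subsystem hinv.1 X hη
    obtain ⟨K, hKp, hK⟩ := exists_chain_kernel S hRX hXS
    have := finite_mulAut hXS
    have hBn : ((E.autGroup X).subgroupOf
        ((groupFusionSystem (S : Subgroup G)).autGroup X)).Normal :=
      ⟨fun b hb a => conj_mem_autGroup hinv hXT a.2 hb⟩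
    refine mem_of_factor (p := p) (B := (E.autGroup X).subgroupOf _) hBn hKp
      (α := ⟨α, hαF⟩) (η := ⟨η, hηF⟩) hη (hK _ ?_ ?_) (by rw [← Subgroup.orderOf_coe]; exact hcop)
    all_goals
      intro x
      have hinvη : ∀ y : X, ((η⁻¹ y : X) : G) = u⁻¹ * (y : G) * u := fun y => by
        have h2 : u * ((η⁻¹ y : X) : G) * u⁻¹ = y := by
          rw [← hu (η⁻¹ y), ← hηe (η⁻¹ y), MulAut.apply_inv_self]
        conv_rhs => rw [← h2]
        group
    · intro hxR
      refine Subtype.ext ?_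
      show ((η⁻¹ (α x) : X) : G) = x
      rw [hinvη, hhα', ← hψ'R _ hxR]
      group
    · show ((η⁻¹ (α x) : X) : G) * (x : G)⁻¹ ∈ R
      rw [hinvη, hhα']
      have h3 := hRn.conj_mem _ (hδ x) u⁻¹
      rw [show ψ' x = u * (x : G) * u⁻¹ from hu x] at h3
      simpa [mul_assoc] using h3

/-- The normal subgroup carrying a normal subsystem exists and is unique. -/
theorem exists_unique_normalSubgroup
    (hG : Subgroup.centralizer ((pCore p G : Subgroup G) : Set G) ≤ pCore p G)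
    (hE : E.IsNormalIn (groupFusionSystem (S : Subgroup G)) p) :
    ∃ H : Subgroup G, (∃ hTH : T ≤ H, H.Normal ∧ (∃ R : Sylow p H, (R : Subgroup H) = T.subgroupOf H) ∧
      ∀ P : Subgroup G, E.Hom P = (fusionSystemOfSubgroup H T hTH).Hom P) ∧
      ∀ H' : Subgroup G, (∃ hTH' : T ≤ H', H'.Normal ∧
        (∃ R : Sylow p H', (R : Subgroup H') = T.subgroupOf H') ∧
        ∀ P : Subgroup G, E.Hom P = (fusionSystemOfSubgroup H' T hTH').Hom P) → H' = H := by
  classical
  have hinv := hE.1.2.2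
  have hTsc := hinv.2.1
  have hTS := hTsc.1
  have hTp : IsPGroup p T := S.2.to_le hTS
  have hTN := le_normalizer_of_stronglyClosed hTsc
  have hQn : (pCore p G).Normal := Fusion.pCore_normal
  have hQp : IsPGroup p (pCore p G) := isPGroup_pCore
  have hQS : pCore p G ≤ (S : Subgroup G) := @IsPGroup.le_sylow_of_normal p G _ _ hQn hQp S
  have hRn := interNormal S hTsc
  generalize hRdef : pCore p G ⊓ T = R at hRn
  have hRQ : R ≤ pCore p G := hRdef ▸ inf_le_left
  have hRT : R ≤ T := hRdef ▸ inf_le_right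
  have hU := bigSub_normal S hinv hRT
  have hTU : T ≤ bigSub (p := p) E R := by
    intro t ht
    refine ⟨fun q hq => hRdef.le ⟨?_, ?_⟩, ?_⟩
    · exact mul_mem (hQn.conj_mem q hq t) (Subgroup.inv_mem _ hq)
    · rw [mul_assoc, mul_assoc]
      refine mul_mem ht ?_
      rw [← mul_assoc]
      exact conj_mem_of_mem_normalizer (hTN (hQS hq)) (inv_mem ht)
    · have htN : t ∈ Subgroup.normalizer (R : Set G) :=
        mem_normalizer_of_conj_mem fun r hr => hRn.conj_mem r hr t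
      have h1 : (MulAut.conjNormal t : MulAut R) = conjAut R htN :=
        MulEquiv.ext fun r => Subtype.ext rfl
      show MulAut.conjNormal t ∈ E.autGroup R
      rw [h1]
      exact autInducedBy_le_autGroup hRT (conjAut_mem_autInducedBy ht htN)
  let c : G →* MulAut R := MulAut.conjNormal
  have hmapU : (bigSub (p := p) E R).map c = E.autGroup R :=
    le_antisymm (by rintro _ ⟨u, hu, rfl⟩; exact hu.2)
      (autGroup_le_map S hG hE hRQ hRT hRdef.le hU hTU)
  -- decomposition of `S ⊓ H₀`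
  have hTR := (isReceptive_of_normal_pgroup hTp hE.1.1
    (isNormal_of_normal_pgroup S hTp hE.1.1 hinv.1 hRT)).2.2
  have := finite_mulAut (hRT.trans hTS)
  have hsplit : ∀ x ∈ bigSub (p := p) E R, x ∈ (S : Subgroup G) →
      ∃ t ∈ T, t⁻¹ * x ∈ pCore p G ∧ c t = c x := by
    intro x hx hxS
    have hnorm : c x ∈ Subgroup.normalizer (autInducedBy T R : Set (MulAut R)) := by
      refine mem_normalizer_of_conj_mem fun τ hτ => ?_
      obtain ⟨t, ⟨ht, htN⟩, hte⟩ := exists_of_mem_autInducedBy hτ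
      refine mem_autInducedBy.2 ⟨x * t * x⁻¹, conj_mem_of_mem_normalizer (hTN hxS) ht, fun r => ?_⟩
      have h1 : (((c x)⁻¹ r : R) : G) = x⁻¹ * (r : G) * x := by
        rw [← map_inv]
        show x⁻¹ * (r : G) * x⁻¹⁻¹ = _
        rw [inv_inv]
      show x * ((τ ((c x)⁻¹ r) : R) : G) * x⁻¹ = _
      rw [hte, h1]
      group
    have hle : autInducedBy T R ⊔ Subgroup.zpowers (c x) ≤ E.autGroup R :=
      sup_le hTR.1 (Subgroup.zpowers_le.2 hx.2)
    have hp : IsPGroup p ↥(autInducedBy T R ⊔ Subgroup.zpowers (c x)) := by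
      refine IsPGroup.to_sup_of_normal_left' hTR.2.1 ?_ (Subgroup.zpowers_le.2 hnorm)
      have hz : IsPGroup p ↥((Subgroup.zpowers x).map c) :=
        (S.2.to_le (Subgroup.zpowers_le.2 hxS)).map c
      rwa [MonoidHom.map_zpowers] at hz
    obtain ⟨t, ⟨ht, htN⟩, hte⟩ := exists_of_mem_autInducedBy
      ((hTR.eq_of_le le_sup_left hle hp).le (Subgroup.mem_sup_right (Subgroup.mem_zpowers _)))
    have htx : c t = c x := MulEquiv.ext fun r => Subtype.ext (hte r).symm
    refine ⟨t, ht, ?_, htx⟩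
    refine shift_inf_centralizer_le hG hRQ
      ⟨mul_mem (Subgroup.inv_mem _ (hTU ht).1) hx.1, Subgroup.mem_centralizer_iff.2 fun r hr => ?_⟩
    have h1 := congrArg (fun f : MulAut R => ((f ⟨r, hr⟩ : R) : G)) htx
    have h1' : t * r * t⁻¹ = x * r * x⁻¹ := h1
    calc r * (t⁻¹ * x) = t⁻¹ * (t * r * t⁻¹) * x := by group
      _ = t⁻¹ * (x * r * x⁻¹) * x := by rw [h1']
      _ = t⁻¹ * x * r := by group
  set U := bigSub (p := p) E R
  have hUn : U.Normal := hU
  obtain ⟨S₀, hS₀⟩ := Transfer.exists_sylow_inf S U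
  set N := (pResidual p U).map U.subtype
  have hNU : N ≤ U := Subgroup.map_subtype_le _
  have hNn : N.Normal := by
    have := Transfer.pResidual_characteristic (p := p) (G := U)
    infer_instance
  have hNT : N ⊓ (S : Subgroup G) ≤ T := by
    rintro _ ⟨⟨y, hy, rfl⟩, hyS⟩
    have h1 : y ∈ (S₀ : Subgroup U).focalSubgroup :=
      Transfer.pResidual_inf_le_focal S₀ ⟨hy, hS₀ ▸ hyS⟩
    have h2 : (S₀ : Subgroup U).focalSubgroup ≤ T.subgroupOf U := by
      rw [Subgroup.focalSubgroup_def, Subgroup.closure_le]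
      rintro _ ⟨hg, x, hx, u, rfl⟩
      rw [hS₀] at hg hx
      obtain ⟨t, ht, hy', -⟩ := hsplit x x.2 hx
      show ((x * u * x⁻¹ * u⁻¹ : U) : G) ∈ T
      have hgS : (x : G) * u * (x : G)⁻¹ * (u : G)⁻¹ ∈ (S : Subgroup G) := hg
      set y := t⁻¹ * (x : G)
      set w := y * u * y⁻¹ * (u : G)⁻¹
      have hw : w ∈ R := by
        have h3 := R.inv_mem (u.2.1 y hy')
        simpa [w, mul_assoc] using h3
      have e : ((x * u * x⁻¹ * u⁻¹ : U) : G) = t * w * ((u : G) * t⁻¹ * (u : G)⁻¹) := by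
        show (x : G) * u * (x : G)⁻¹ * (u : G)⁻¹ = _
        simp [w, y, mul_assoc]
      rw [e]
      refine mul_mem (mul_mem ht (hRT hw)) (conj_mem_of_closed S hTsc (inv_mem ht) ?_)
      have h4 : (u : G) * t⁻¹ * (u : G)⁻¹ = (t * w)⁻¹ * ((x : G) * u * (x : G)⁻¹ * (u : G)⁻¹) := by
        simp [w, y, mul_assoc]
      rw [h4]
      exact mul_mem (inv_mem (mul_mem (hTS ht) (hTS (hRT hw)))) hgS
    exact h2 h1
  have hNS : ∀ u ∈ U, ∃ n ∈ N, ∃ s ∈ (S : Subgroup G), s ∈ U ∧ u = n * s := by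
    intro u hu
    have hres := Transfer.pResidual_characteristic (p := p) (G := U)
    have hmem : (⟨u, hu⟩ : U) ∈ pResidual p U ⊔ (S₀ : Subgroup U) :=
      (Transfer.pResidual_sup_sylow S₀).ge (Subgroup.mem_top _)
    obtain ⟨n, hn, s, hs, hns⟩ := Subgroup.mem_sup_of_normal_left.1 hmem
    rw [hS₀] at hs
    exact ⟨n, ⟨n, hn, rfl⟩, s, hs, s.2, (congrArg Subtype.val hns).symm⟩
  set H := N ⊔ T
  have hTH : T ≤ H := le_sup_right
  have hHU : H ≤ U := sup_le hNU hTU
  have hHn : H.Normal := by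
    rw [← Subgroup.normalizer_eq_top_iff]
    refine top_le_iff.1 ?_
    rw [← Sylow.normalizer_sup_eq_top S₀, sup_le_iff]
    constructor
    · intro g hg
      refine Subgroup.normalizer_inf_normalizer_le_normalizer_sup N T ⟨?_, ?_⟩
      · rw [Subgroup.normalizer_eq_top]; exact Subgroup.mem_top g
      · refine mem_normalizer_of_conj_mem fun t ht => conj_mem_of_closed S hTsc ht ?_
        have h1 : t ∈ (S₀ : Subgroup U).map U.subtype := by
          rw [hS₀]
          exact ⟨⟨t, hTU ht⟩, hTS ht, rfl⟩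
        obtain ⟨y, hy, hye⟩ := conj_mem_of_mem_normalizer hg h1
        rw [hS₀] at hy
        exact hye ▸ hy
    · intro u hu
      obtain ⟨n, hn, s, hs, -, rfl⟩ := hNS u hu
      refine mul_mem (Subgroup.le_normalizer (Subgroup.mem_sup_left hn)) ?_
      refine Subgroup.normalizer_inf_normalizer_le_normalizer_sup N T ⟨?_, hTN hs⟩
      rw [Subgroup.normalizer_eq_top]; exact Subgroup.mem_top s
  have hSH : (S : Subgroup G) ⊓ H = T := by
    refine le_antisymm (fun x hx => ?_) (le_inf hTS hTH)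
    obtain ⟨n, hn, t, ht, rfl⟩ := Subgroup.mem_sup_of_normal_left.1 hx.2
    exact mul_mem (hNT ⟨hn, by have h := mul_mem hx.1 (Subgroup.inv_mem _ (hTS ht)); rwa [mul_inv_cancel_right] at h⟩) ht
  obtain ⟨SH, hSHe⟩ := Transfer.exists_sylow_inf S H
  have hSHT : (SH : Subgroup H) = T.subgroupOf H := by
    rw [hSHe, ← Subgroup.inf_subgroupOf_right, hSH]
  have hsyl : IsSylowIn p T H := by
    refine ⟨hTH, hTp, ?_⟩
    show ¬ p ∣ (T.subgroupOf H).index
    rw [← hSHT]
    exact SH.not_dvd_index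
  have hmapH : H.map c = E.autGroup R := by
    refine le_antisymm (by rw [← hmapU]; exact Subgroup.map_mono hHU) ?_
    rw [← hmapU]
    rintro _ ⟨u, hu, rfl⟩
    obtain ⟨n, hn, s, hs, hsU, rfl⟩ := hNS u hu
    obtain ⟨t, ht, -, hte⟩ := hsplit s hsU hs
    exact ⟨n * t, mul_mem (Subgroup.mem_sup_left hn) (hTH ht), by rw [map_mul, map_mul, hte]⟩
  have hHR : pCore p G ⊓ H ≤ R := fun x hx =>
    hRdef.le ⟨hx.1, hSH.le ⟨hQS hx.1, hx.2⟩⟩
  refine ⟨H, ⟨hTH, hHn, ⟨SH, hSHT⟩,
    hom_eq S hG hE hRQ hRT hTH hsyl (hHU.trans inf_le_left) hHR hmapH⟩, ?_⟩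
  rintro H' ⟨hTH', hH'n, ⟨S', hS'⟩, hhom⟩
  have hmax : ∀ W : Subgroup G, W ≤ H' → IsPGroup p W → T ≤ W → W ≤ T := by
    intro W hW hWp hTW x hx
    have h1 : W.subgroupOf H' = S' := S'.3 (isPGroup_subgroupOf hWp)
      (by rw [hS']; exact fun y hy => hTW hy)
    have h2 : (⟨x, hW hx⟩ : H') ∈ T.subgroupOf H' := by
      rw [← hS', ← h1]; exact hx
    exact h2
  have hQH' : pCore p G ⊓ H' ≤ R := by
    intro x hx
    refine hRdef.le ⟨hx.1, ?_⟩
    refine hmax ((pCore p G ⊓ H') ⊔ T) (sup_le inf_le_right hTH') ?_ le_sup_right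
      (Subgroup.mem_sup_left hx)
    exact IsPGroup.to_sup_of_normal_left' (hQp.to_le inf_le_left) hTp
      (by rw [Subgroup.normalizer_eq_top]; exact le_top)
  have hH'U : H' ≤ U := by
    intro h hh
    refine ⟨fun q hq => hQH' ⟨mul_mem (hQn.conj_mem q hq h) (Subgroup.inv_mem _ hq), ?_⟩, ?_⟩
    · rw [mul_assoc, mul_assoc]
      refine mul_mem hh ?_
      rw [← mul_assoc]
      exact hH'n.conj_mem _ (inv_mem hh) q
    · refine (mem_autGroup hRT).2 ?_
      show _ ∈ E.Hom R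
      rw [hhom]
      exact ⟨hRT, fun r => hRT (MulAut.conjNormal h r).2, h, hh, fun r => rfl⟩
  have hNH' : N ≤ H' := by
    rintro _ ⟨g, hg, rfl⟩
    induction hg using Subgroup.closure_induction with
    | one => exact one_mem _
    | mul a b _ _ ha hb => exact mul_mem ha hb
    | inv a _ ha => exact inv_mem ha
    | mem g hg =>
      have hgR : c g ∈ E.autGroup R := g.2.2
      obtain ⟨-, -, h, hh, hhe⟩ : (R.subtype.comp (c g).toMonoidHom) ∈
          (fusionSystemOfSubgroup H' T hTH').Hom R := by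
        rw [← hhom]; exact (mem_autGroup hRT).1 hgR
      have hq : h⁻¹ * (g : G) ∈ pCore p G := shift_inf_centralizer_le hG hRQ
        ⟨mul_mem (Subgroup.inv_mem _ (hH'U hh).1) g.2.1, Subgroup.mem_centralizer_iff.2 fun r hr => by
          have h1 : (g : G) * r * (g : G)⁻¹ = h * r * h⁻¹ := hhe ⟨r, hr⟩
          calc r * (h⁻¹ * (g : G)) = h⁻¹ * (h * r * h⁻¹) * (g : G) := by group
            _ = h⁻¹ * ((g : G) * r * (g : G)⁻¹) * (g : G) := by rw [h1]
            _ = h⁻¹ * (g : G) * r := by group⟩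
      obtain ⟨k, hk⟩ := hQp ⟨_, hq⟩
      show (g : G) ∈ H'
      rw [← QuotientGroup.eq_one_iff (N := H')]
      have h1 : ((h⁻¹ * (g : G) : G) : G ⧸ H') = ((g : G) : G ⧸ H') := by
        rw [QuotientGroup.mk_mul, QuotientGroup.mk_inv, (QuotientGroup.eq_one_iff h).2 hh, inv_one,
          one_mul]
      refine eq_one_of_pGroup_coprime ⟨k, ?_⟩ (m := orderOf (g : G))
        (by rw [← QuotientGroup.mk_pow, pow_orderOf_eq_one]; rfl)
        (by rw [Subgroup.orderOf_coe]; exact hg)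
      rw [← h1, ← QuotientGroup.mk_pow, show (h⁻¹ * (g : G)) ^ p ^ k = 1 from
        congrArg Subtype.val hk]
      rfl
  refine le_antisymm (fun x hx => ?_) (sup_le hNH' hTH')
  obtain ⟨n, hn, s, hs, -, rfl⟩ := hNS x (hH'U hx)
  have hsH : s ∈ H' := by simpa using mul_mem (inv_mem (hNH' hn)) hx
  refine mul_mem (Subgroup.mem_sup_left hn) (hTH ?_)
  exact hmax ((S : Subgroup G) ⊓ H') inf_le_right (S.2.to_le inf_le_left) (le_inf hTS hTH')
    ⟨hs, hsH⟩

end Cfsg.Agent.Lib.Fusion.NormalModel
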