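import Cfsg.Agent.Lib.Fusion.CentralizerSub

/-!
Full subsystems over a strongly closed direct factor.
-/

set_option autoImplicit false

namespace Cfsg.Agent.Lib.Fusion.ProductFull

open Cfsg Cfsg.FusionSystem

variable {Ω : Type*} [Group Ω] {S T : Subgroup Ω} {F : FusionSystem S} {p : ℕ}

/-- The full subsystem over a strongly closed subgroup with a centralizing complement is saturated. -/
theorem full_saturated [Finite S] [Fact p.Prime] (hF : F.IsSaturated p) (hT : F.StronglyClosed T)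
    (hsplit : ∀ g ∈ S, ∃ t ∈ T, t⁻¹ * g ∈ Subgroup.centralizer (T : Set Ω))
    {R : FusionSystem T} (hR : ∀ P : Subgroup Ω, P ≤ T → R.Hom P = F.Hom P) : R.IsSaturated p := by
  have := finite_of_le hT.1
  intro P hP
  obtain ⟨Q, hPQ, hA, hQ⟩ := hF P (hP.trans hT.1)
  have hQT : Q ≤ T := by
    obtain ⟨φ, hφ, rfl⟩ := hPQ
    rintro _ ⟨x, rfl⟩
    exact map_mem_of_stronglyClosed hT hφ x (hP x.2)
  refine ⟨Q, ?_, ?_, hQT, ?_⟩
  · obtain ⟨φ, hφ, hr⟩ := hPQ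
    exact ⟨φ, (hR P hP).symm ▸ hφ, hr⟩
  · have hAu : R.autGroup Q = F.autGroup Q := by
      ext α
      simp only [mem_autGroup hQT, mem_autGroup hA.1, isIso_iff, hR Q hQT]
    have hI : autInducedBy T Q = autInducedBy S Q := by
      refine le_antisymm (autInducedBy_mono hT.1 Q) fun α hα => ?_
      obtain ⟨g, hgS, hg⟩ := mem_autInducedBy.1 hα
      obtain ⟨t, ht, hc⟩ := hsplit g hgS
      refine mem_autInducedBy.2 ⟨t, ht, fun x => ?_⟩
      rw [hg x]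
      have h1 := Subgroup.mem_centralizer_iff.1 hc (x : Ω) (hQT x.2)
      calc g * (x : Ω) * g⁻¹ = t * ((t⁻¹ * g) * x * (t⁻¹ * g)⁻¹) * t⁻¹ := by group
        _ = t * (x : Ω) * t⁻¹ := by rw [← h1, mul_inv_cancel_right]
    rw [isFullyAutomized_iff] at hA ⊢
    exact ⟨hQT, hI ▸ hAu ▸ hA.2⟩
  · intro P' φ hφ hr
    have hP' : P' ≤ T := src_le hφ
    have hφF : φ ∈ F.Hom P' := hR P' hP' ▸ hφ
    obtain ⟨ψ, hψ, hψe⟩ := hQ.2 P' φ hφF hr
    have hle : extender T P' φ ≤ extender S P' φ := by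
      refine Subgroup.closure_mono ?_
      rintro g ⟨h1, h2, h, hh, h3⟩
      exact ⟨hT.1 h1, h2, h, hT.1 hh, h3⟩
    have hNT : extender T P' φ ≤ T := (extender_le T P' φ).trans (normalizerIn_le T P')
    refine ⟨_, (hR _ hNT).symm ▸ restrict_mem hle hψ, fun x hx hN => hψe x hx (hle hN)⟩

/-- Transport of a map along a map of a larger subgroup. -/
theorem conj_hom {P Q P' : Subgroup Ω} (hPQ : P ≤ Q) {φ : P →* Ω} (hφ : φ ∈ F.Hom P)
    (hφQ : ∀ x : P, φ x ∈ Q) {ψ : Q →* Ω} (hψ : ψ ∈ F.Hom Q) {a : P ≃* P'}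
    (ha : ∀ x : P, (a x : Ω) = ψ ⟨x, hPQ x.2⟩) {χ : P' →* Ω}
    (hχ : ∀ x : P, χ (a x) = ψ ⟨φ x, hφQ x⟩) : χ ∈ F.Hom P' := by
  obtain ⟨ω, hω, hωe⟩ := F.inv_mem hψ
  have hle : P' ≤ ψ.range := fun z hz => ⟨⟨_, hPQ (a.symm ⟨z, hz⟩).2⟩, by rw [← ha]; simp⟩
  have hmem : ∀ z : P', ω (Subgroup.inclusion hle z) = (a.symm z : Ω) := fun z => by
    refine Eq.trans (congrArg ω (Subtype.ext ?_)) (hωe (Subgroup.inclusion hPQ (a.symm z)))
    show (z : Ω) = ψ _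
    rw [show Subgroup.inclusion hPQ (a.symm z) = ⟨(a.symm z : Ω), hPQ (a.symm z).2⟩ from rfl, ← ha]
    simp
  have h1 : ψ.comp (φ.codRestrict Q hφQ) ∈ F.Hom P := F.comp_mem hφ hψ hφQ
  refine mem_of_comp (restrict_mem hle hω) h1 (fun z => ?_) fun z => ?_
  · show ω (Subgroup.inclusion hle z) ∈ P
    rw [hmem z]
    exact (a.symm z).2
  · conv_lhs => rw [← a.apply_symm_apply z]
    rw [hχ]
    show ψ _ = ψ _
    congr 1
    refine Subtype.ext (congrArg φ (Subtype.ext ?_))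
    exact (hmem z).symm

end Cfsg.Agent.Lib.Fusion.ProductFull
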