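import Cfsg.Agent.Lib.Fusion.ProductFull

/-!
The two subsystems over a strongly closed direct factor.
-/

set_option autoImplicit false

namespace Cfsg.Agent.Lib.Fusion.ProductFull

open Cfsg Cfsg.FusionSystem

variable {Ω : Type*} [Group Ω] {S S₁ S₂ : Subgroup Ω} {F : FusionSystem S} {p : ℕ}

theorem product_factor [Finite S] [Fact p.Prime] (hS : IsPGroup p S) (hF : F.IsSaturated p)
    (hprod : Cfsg.IsInternalDirectProduct S₁ S₂ S) (h₁ : F.StronglyClosed S₁) (h₂ : F.StronglyClosed S₂)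
    (R R' : FusionSystem S₁) (hR : ∀ P : Subgroup Ω, P ≤ S₁ → R.Hom P = F.Hom P)
    (hR' : ∀ P : Subgroup Ω, P ≤ S₁ → R'.Hom P = F.centralizerHom S₂ P) :
    R.IsSaturated p ∧ R'.IsSaturated p ∧ R'.IsNormalIn F p ∧ R'.IsNormalIn R p ∧
      R.IsWeaklyNormalIn F p := by
  obtain ⟨hS₁, hS₂, hcomm, -, hsup⟩ := hprod
  have := finite_of_le hS₁
  have := finite_of_le hS₂
  have hC₁ : S₁ ≤ centralizerIn S S₂ := fun a ha =>
    mem_centralizerIn.2 ⟨hS₁ ha, fun b hb => (hcomm a ha b hb).symm⟩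
  have hC₂ : S₂ ≤ centralizerIn S S₁ := fun b hb =>
    mem_centralizerIn.2 ⟨hS₂ hb, fun a ha => hcomm a ha b hb⟩
  have hdec : ∀ g ∈ S, ∃ t ∈ S₁, t⁻¹ * g ∈ S₂ := by
    intro g hg
    rw [← hsup] at hg
    have hn : S₁ ≤ Subgroup.normalizer (S₂ : Set Ω) := fun a ha =>
      centralizer_le_normalizer' S₂ (mem_centralizerIn.1 (hC₁ ha)).2
    rw [← SetLike.mem_coe, Subgroup.coe_mul_of_left_le_normalizer_right _ _ hn] at hg
    obtain ⟨t, ht, s, hs, rfl⟩ := hg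
    exact ⟨t, ht, by simpa [mul_assoc] using hs⟩
  have hsplit : ∀ g ∈ S, ∃ t ∈ S₁, t⁻¹ * g ∈ Subgroup.centralizer (S₁ : Set Ω) := fun g hg => by
    obtain ⟨t, ht, hs⟩ := hdec g hg
    exact ⟨t, ht, (mem_centralizerIn.1 (hC₂ hs)).2⟩
  have hB : CentralizerSub.Base F S₂ S₁ p := ⟨hS, hF, h₂, h₁, hC₁⟩
  have hRsat : R.IsSaturated p := full_saturated hF h₁ hsplit hR
  have hR'sat : R'.IsSaturated p := by
    have : Finite (centralizerIn S S₂) := finite_of_le (centralizerIn_le S S₂)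
    refine full_saturated hB.cent_saturated ⟨hC₁, fun P hP φ hφ x => ?_⟩
      (fun g hg => hsplit g (centralizerIn_le S S₂ hg))
      (fun P hP => by rw [CentralizerSub.cent_hom, hR' P hP])
    rw [CentralizerSub.cent_hom] at hφ
    exact h₁.2 P hP φ hφ.1 x
  have hR'F : R'.IsSubsystemOf F := fun P φ hφ => by
    rw [hR' P (src_le hφ)] at hφ
    exact hφ.1
  have hR'R : R'.IsSubsystemOf R := fun P φ hφ => (hR P (src_le hφ)).symm ▸ hR'F P hφ
  have hRF : R.IsSubsystemOf F := fun P φ hφ => by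
    rwa [hR P (src_le hφ)] at hφ
  have hscR : R.StronglyClosed S₁ := ⟨le_rfl, fun P _ φ hφ x => val_mem hφ x⟩
  have hIR : StrongInvariant R F := by
    intro P Q P' hPQ hQ φ hφ hφQ ψ hψ a ha χ hχ
    have hP' : P' ≤ S₁ := fun z hz => by
      have h1 := ha (a.symm ⟨z, hz⟩)
      rw [MulEquiv.apply_symm_apply] at h1
      rw [show z = ψ _ from h1]
      exact map_mem_of_stronglyClosed h₁ hψ _ (hQ (hPQ (a.symm _).2))
    rw [hR P' hP']
    exact conj_hom hPQ (hRF P hφ) hφQ hψ ha hχ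
  have hIR' : StrongInvariant R' F := by
    intro P Q P' hPQ hQ φ hφ hφQ ψ hψ a ha χ hχ
    have hPS := src_le hφ
    have hP' : P' ≤ S₁ := fun z hz => by
      have h1 := ha (a.symm ⟨z, hz⟩)
      rw [MulEquiv.apply_symm_apply] at h1
      rw [show z = ψ _ from h1]
      exact map_mem_of_stronglyClosed h₁ hψ _ (hQ (hPQ (a.symm _).2))
    rw [hR' P hPS] at hφ
    obtain ⟨hφF, -, -, φ', hφ', hφ'e, hφ'f⟩ := hφ
    rw [hR' P' hP']
    have hχF : χ ∈ F.Hom P' := conj_hom hPQ hφF hφQ hψ ha hχ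
    refine ⟨hχF, hP'.trans hC₁, fun z => hC₁ ?_, ?_⟩
    · obtain ⟨x, rfl⟩ := a.surjective z
      exact hχ x ▸ map_mem_of_stronglyClosed h₁ hψ _ (hQ (hφQ x))
    obtain ⟨ψ', hψ', hψ'e, hψ'f⟩ := hB.exists_ext_sup hψ hQ
    obtain ⟨μ, -, hμ⟩ := exists_aut_of_self_map
      (restrict_mem (le_sup_right : S₂ ≤ Q ⊔ S₂) hψ') hψ'f
    have hφ'Q : ∀ w : ↥(P ⊔ S₂), φ' w ∈ Q ⊔ S₂ := fun w => sup_map_le
      (fun x => by rw [hφ'e]; exact Subgroup.mem_sup_left (hφQ x))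
      (fun x => by rw [hφ'f]; exact Subgroup.mem_sup_right x.2) w
    obtain ⟨ω, hω, hωe⟩ := F.inv_mem hψ'
    have hle : P' ⊔ S₂ ≤ ψ'.range := by
      refine sup_le (fun z hz => ?_) fun s hs => ?_
      · refine ⟨Subgroup.inclusion le_sup_left ⟨_, hPQ (a.symm ⟨z, hz⟩).2⟩, ?_⟩
        rw [hψ'e, ← ha]; simp
      · obtain ⟨u, hu⟩ := μ.surjective ⟨s, hs⟩
        exact ⟨Subgroup.inclusion le_sup_right u, (hμ u).symm.trans (congrArg Subtype.val hu)⟩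
    have hPle : P ⊔ S₂ ≤ Q ⊔ S₂ := sup_le_sup_right hPQ S₂
    have hωa : ∀ z : P', ω (Subgroup.inclusion hle (Subgroup.inclusion le_sup_left z)) = (a.symm z : Ω) := by
      intro z
      refine Eq.trans (congrArg ω (Subtype.ext ?_))
        (hωe (Subgroup.inclusion le_sup_left (Subgroup.inclusion hPQ (a.symm z))))
      show (z : Ω) = ψ' (Subgroup.inclusion le_sup_left (Subgroup.inclusion hPQ (a.symm z)))
      rw [hψ'e, show Subgroup.inclusion hPQ (a.symm z) = ⟨(a.symm z : Ω), hPQ (a.symm z).2⟩ from rfl, ← ha]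
      simp
    have hωs : ∀ s : S₂, ω (Subgroup.inclusion hle (Subgroup.inclusion le_sup_right s)) = (μ.symm s : Ω) := by
      intro s
      refine Eq.trans (congrArg ω (Subtype.ext ?_)) (hωe (Subgroup.inclusion le_sup_right (μ.symm s)))
      show (s : Ω) = ψ' (Subgroup.inclusion le_sup_right (μ.symm s))
      have h1 := hμ (μ.symm s)
      rw [MulEquiv.apply_symm_apply] at h1
      exact h1
    have hωP : ∀ w : ↥(P' ⊔ S₂), ω (Subgroup.inclusion hle w) ∈ P ⊔ S₂ := fun w => sup_map_le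
      (f := ω.comp (Subgroup.inclusion hle))
      (fun z => by rw [MonoidHom.comp_apply, hωa]; exact Subgroup.mem_sup_left (a.symm z).2)
      (fun s => by rw [MonoidHom.comp_apply, hωs]; exact Subgroup.mem_sup_right (μ.symm s).2) w
    refine ⟨_, F.comp_mem (F.comp_mem (restrict_mem hle hω) hφ' hωP) hψ' fun w => hφ'Q _,
      fun z => ?_, fun s => ?_⟩
    · show ψ' ⟨φ' ⟨ω (Subgroup.inclusion hle (Subgroup.inclusion le_sup_left z)), _⟩, _⟩ = χ z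
      conv_rhs => rw [← a.apply_symm_apply z, hχ, ← hψ'e]
      refine congrArg ψ' (Subtype.ext ?_)
      show φ' ⟨_, _⟩ = φ (a.symm z)
      rw [← hφ'e]
      exact congrArg φ' (Subtype.ext (hωa z))
    · show ψ' ⟨φ' ⟨ω (Subgroup.inclusion hle (Subgroup.inclusion le_sup_right s)), _⟩, _⟩ = (s : Ω)
      have h1 := hμ (μ.symm s)
      rw [MulEquiv.apply_symm_apply] at h1
      refine Eq.trans (congrArg ψ' (Subtype.ext ?_)) h1.symm
      show φ' ⟨_, _⟩ = (μ.symm s : Ω)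
      rw [← hφ'f (μ.symm s)]
      exact congrArg φ' (Subtype.ext (hωs s))
  have hIR'R : StrongInvariant R' R := fun P Q P' hPQ hQ φ hφ hφQ ψ hψ a ha χ hχ =>
    hIR' P Q P' hPQ hQ φ hφ hφQ ψ (hRF Q hψ) a ha χ hχ
  refine ⟨hRsat, hR'sat, ⟨⟨hR'sat, hF, isInvariantIn_of_strongInvariant hS hF hR'F h₁ hIR'⟩, ?_⟩,
    ⟨⟨hR'sat, hRsat, isInvariantIn_of_strongInvariant (hS.to_le hS₁) hRsat hR'R hscR hIR'R⟩, ?_⟩,
    ⟨hRsat, hF, isInvariantIn_of_strongInvariant hS hF hRF h₁ hIR⟩⟩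
  · intro α hα
    have hα' := (mem_autGroup le_rfl).1 hα
    rw [isIso_iff, hR' S₁ le_rfl] at hα'
    obtain ⟨-, -, -, ψ, hψ, hψe, hψf⟩ := hα'
    have hW : S₁ ⊔ centralizerIn S S₁ ≤ S₁ ⊔ S₂ := by
      rw [hsup]; exact sup_le hS₁ (centralizerIn_le S S₁)
    have hmem : ∀ w : ↥(S₁ ⊔ centralizerIn S S₁),
        ψ (Subgroup.inclusion hW w) ∈ S₁ ⊔ centralizerIn S S₁ := fun w => by
      have h1 : ψ (Subgroup.inclusion hW w) ∈ S₁ ⊔ S₂ := hsup.ge (val_mem hψ (Subgroup.inclusion hW w))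
      exact sup_le_sup_left hC₂ S₁ h1
    have : Finite ↥(S₁ ⊔ centralizerIn S S₁) := finite_of_le (hW.trans hsup.le)
    obtain ⟨β, hβ, hβe⟩ := exists_aut_of_self_map (restrict_mem hW hψ) hmem
    refine ⟨β, hβ, fun x => (hβe _).trans (hψe x), fun c hc => ?_⟩
    obtain ⟨t, ht, hs⟩ := hdec _ (centralizerIn_le S S₁ hc)
    have htC : t ∈ Subgroup.centralizer (S₁ : Set Ω) := by
      have h1 : (c : Ω) * (t⁻¹ * (c : Ω))⁻¹ ∈ Subgroup.centralizer (S₁ : Set Ω) :=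
        mul_mem (Subgroup.mem_centralizer_iff.2 (mem_centralizerIn.1 hc).2)
          (inv_mem (Subgroup.mem_centralizer_iff.2 (mem_centralizerIn.1 (hC₂ hs)).2))
      simpa [mul_inv_rev, ← mul_assoc] using h1
    have e : Subgroup.inclusion hW c = Subgroup.inclusion le_sup_left ⟨t, ht⟩ *
        Subgroup.inclusion le_sup_right ⟨t⁻¹ * c, hs⟩ := Subtype.ext (by simp)
    have hval : ((β c : ↥(S₁ ⊔ centralizerIn S S₁)) : Ω) = (α ⟨t, ht⟩ : Ω) * (t⁻¹ * c) := by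
      refine (hβe c).trans ?_
      show ψ (Subgroup.inclusion hW c) = _
      rw [e, map_mul, hψe, hψf]
      rfl
    have hαC : (α ⟨t, ht⟩ : Ω) ∈ Subgroup.centralizer (S₁ : Set Ω) := by
      refine Subgroup.mem_centralizer_iff.2 fun y hy => ?_
      obtain ⟨u, hu⟩ := α.surjective ⟨y, hy⟩
      rw [show y = (α u : Ω) from (congrArg Subtype.val hu).symm, ← Subgroup.coe_mul, ← Subgroup.coe_mul,
        ← map_mul, ← map_mul]
      exact congrArg (fun z => ((α z : S₁) : Ω)) (Subtype.ext (Subgroup.mem_centralizer_iff.1 htC _ u.2))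
    have hz : t⁻¹ * (α ⟨t, ht⟩ : Ω) ∈ S₁ := mul_mem (inv_mem ht) (α ⟨t, ht⟩).2
    refine Subgroup.mem_inf.2 ?_
    rw [hval]
    have hsC : t⁻¹ * (c : Ω) ∈ Subgroup.centralizer (S₁ : Set Ω) :=
      Subgroup.mem_centralizer_iff.2 (mem_centralizerIn.1 (hC₂ hs)).2
    have e2 : (c : Ω)⁻¹ * ((α ⟨t, ht⟩ : Ω) * (t⁻¹ * c)) = t⁻¹ * (α ⟨t, ht⟩ : Ω) := by
      have h1 : (t⁻¹ * (c : Ω)) * (t⁻¹ * (α ⟨t, ht⟩ : Ω)) = (t⁻¹ * (α ⟨t, ht⟩ : Ω)) * (t⁻¹ * c) :=
        (Subgroup.mem_centralizer_iff.1 hsC _ hz).symm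
      calc (c : Ω)⁻¹ * ((α ⟨t, ht⟩ : Ω) * (t⁻¹ * c))
          = (t⁻¹ * c)⁻¹ * ((t⁻¹ * (α ⟨t, ht⟩ : Ω)) * (t⁻¹ * c)) := by group
        _ = t⁻¹ * (α ⟨t, ht⟩ : Ω) := by rw [← h1, inv_mul_cancel_left]
    rw [e2]
    exact ⟨hz, mul_mem (inv_mem htC) hαC⟩
  · intro α hα
    have hαR : α ∈ R.autGroup S₁ := (mem_autGroup le_rfl).2 (hR'R _ ((mem_autGroup le_rfl).1 hα))
    have hW : S₁ ⊔ centralizerIn S₁ S₁ ≤ S₁ := sup_le le_rfl (centralizerIn_le _ _)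
    have : Finite ↥(S₁ ⊔ centralizerIn S₁ S₁) := finite_of_le hW
    obtain ⟨β, hβ, hβe⟩ := exists_aut_of_self_map (restrict_mem hW ((mem_autGroup le_rfl).1 hαR))
      fun w => Subgroup.mem_sup_left (α (Subgroup.inclusion hW w)).2
    refine ⟨β, hβ, fun x => hβe _, fun c hc => ?_⟩
    rw [hβe c]
    obtain ⟨hc1, hc2⟩ := mem_centralizerIn.1 hc
    refine Subgroup.mem_inf.2 ⟨mul_mem (inv_mem hc1) (α _).2, mul_mem (inv_mem ?_) ?_⟩
    · exact Subgroup.mem_centralizer_iff.2 hc2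
    · refine Subgroup.mem_centralizer_iff.2 fun y hy => ?_
      obtain ⟨u, hu⟩ := α.surjective ⟨y, hy⟩
      show y * (α (Subgroup.inclusion hW c) : Ω) = (α (Subgroup.inclusion hW c) : Ω) * y
      rw [show y = (α u : Ω) from (congrArg Subtype.val hu).symm, ← Subgroup.coe_mul, ← Subgroup.coe_mul,
        ← map_mul, ← map_mul]
      exact congrArg (fun z => ((α z : S₁) : Ω)) (Subtype.ext (hc2 _ u.2))

end Cfsg.Agent.Lib.Fusion.ProductFull
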